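import Cfsg.Agent.M22Trans.W.Chain
import Cfsg.Agent.M22Trans.W.Relations
import Cfsg.Agent.H77.Y332Words
import Cfsg.Agent.CosetEnum.FiTwentyTwo.Main

/-!
A primitive 3-transposition group of type M(22) is the presented Fischer group, with the transpositions
corresponding to the conjugates of a generator.
-/

set_option autoImplicit false

namespace Cfsg.Agent.M22Trans.W

open Cfsg.Agent.H77 Cfsg.Agent.ThreeTransp45 Cfsg.Agent.SporB Cfsg.Agent.TTLink CoxMoves

/-- The number of a generator. -/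
def genIdx : Cfsg.Spor.Fi22.Gen → ℕ
  | .a => 0 | .b => 1 | .c => 2 | .d => 3 | .e => 4 | .f => 5 | .g => 6 | .h => 7 | .i => 8

open Y332Words in
theorem relators_hold {M : Type*} [Group M] {g : ℕ → M} (R : Rels g adj)
    (h1 : value g spider ^ 10 = 1) (h2 : value g sevenA ^ 9 = 1) (h3 : value g sevenB ^ 9 = 1) :
    ∀ r ∈ Cfsg.Spor.coxRelators Cfsg.Spor.Fi22.edges ∪ {r | r ∈ Cfsg.Spor.Fi22.extra},
      FreeGroup.lift (fun x => g (genIdx x)) r = 1 := by
  intro r hr
  rcases hr with ⟨x, -, y, -, rfl⟩ | hr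
  · rw [map_pow, map_mul, FreeGroup.lift_apply_of, FreeGroup.lift_apply_of]
    have hl : (x = y ∧ Cfsg.Spor.coxLabel Cfsg.Spor.Fi22.edges x y = 1) ∨
        (adj (genIdx x) (genIdx y) = true ∧ Cfsg.Spor.coxLabel Cfsg.Spor.Fi22.edges x y = 3) ∨
        (adj (genIdx x) (genIdx y) = false ∧ adj (genIdx y) (genIdx x) = false ∧
          Cfsg.Spor.coxLabel Cfsg.Spor.Fi22.edges x y = 2) := by
      cases x <;> cases y <;> decide
    rcases hl with ⟨rfl, e⟩ | ⟨h, e⟩ | ⟨h, h', e⟩ <;> rw [e]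
    · rw [pow_one, R.sq]
    · rw [pow_succ, pow_two]
      calc g (genIdx x) * g (genIdx y) * (g (genIdx x) * g (genIdx y)) * (g (genIdx x) * g (genIdx y))
          = g (genIdx x) * g (genIdx y) * g (genIdx x) * (g (genIdx y) * g (genIdx x) * g (genIdx y)) := by
            simp only [mul_assoc]
        _ = g (genIdx x) * g (genIdx y) * g (genIdx x) * (g (genIdx x) * g (genIdx y) * g (genIdx x)) := by
            rw [← R.braid _ _ h]
        _ = 1 := by
            simp only [mul_assoc]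
            rw [← mul_assoc (g (genIdx x)) (g (genIdx x)), R.sq, one_mul, ← mul_assoc (g (genIdx y)) (g (genIdx y)),
              R.sq, one_mul, R.sq]
    · rw [(R.comm _ _ h h').mul_pow, pow_two, pow_two, R.sq, R.sq, one_mul]
  · simp only [Cfsg.Spor.Fi22.extra, Set.mem_setOf_eq, List.mem_cons, List.not_mem_nil, or_false] at hr
    rcases hr with rfl | rfl | rfl <;>
      simp only [map_pow, map_mul, FreeGroup.lift_apply_of, genIdx]
    · rw [← h1]; simp [value, spider, mul_assoc]
    · rw [← h2]; simp [value, sevenA, mul_assoc]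
    · rw [← h3]; simp [value, sevenB, mul_assoc]

/-- A group of type M(22) is the presented Fischer group. -/
theorem iso_fi22 {G : Type*} [Group G] [Finite G] {D : Set G} (P : M22Prim D) :
    ∃ e : Cfsg.Spor.Fi22 ≃* G,
      e '' conjugatesOf (PresentedGroup.of Cfsg.Spor.Fi22.Gen.a : Cfsg.Spor.Fi22) = D := by
  obtain ⟨a, ha, -⟩ := P.hyp.cls.2.1
  obtain ⟨b, hb, hab⟩ : ∃ b ∈ D, ¬ Commute a b := by
    by_contra h
    push Not at h
    exact P.center_trivial ha h
  obtain ⟨p, hp, hpb, pat⟩ := exists_chain P ha hb hab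
  obtain ⟨g, R, hga, h1, h2, h3⟩ := exists_y332 P ha hb hab hp hpb pat
  let f : Cfsg.Spor.Fi22 →* G := PresentedGroup.toGroup (relators_hold R h1 h2 h3)
  have hfa : f (PresentedGroup.of Cfsg.Spor.Fi22.Gen.a) = a := by
    show f (PresentedGroup.of _) = _
    rw [show f = PresentedGroup.toGroup (relators_hold R h1 h2 h3) from rfl, PresentedGroup.toGroup.of]
    exact hga
  obtain ⟨hsimp, hcard⟩ := CosetEnum.FiTwentyTwo.main
  haveI := hsimp
  have hinj : Function.Injective f := by
    refine (f.ker_eq_bot_iff).1 ((inferInstance : f.ker.Normal).eq_bot_or_eq_top.resolve_right fun h => ?_)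
    have : (PresentedGroup.of Cfsg.Spor.Fi22.Gen.a : Cfsg.Spor.Fi22) ∈ f.ker := h ▸ Subgroup.mem_top _
    exact ThreeTransp.ne_one P.data.set ha (hfa.symm.trans this)
  haveI : Finite Cfsg.Spor.Fi22 := Finite.of_injective f hinj
  have hbij : Function.Bijective f := hinj.bijective_of_nat_card_le (by rw [P.group_card, hcard])
  refine ⟨MulEquiv.ofBijective f hbij, ?_⟩
  ext y
  constructor
  · rintro ⟨x, hx, rfl⟩
    obtain ⟨k, rfl⟩ := isConj_iff.1 hx
    show f (k * _ * k⁻¹) ∈ D
    rw [map_mul, map_mul, map_inv, hfa]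
    exact P.data.inv' (f k) a ha
  · intro hy
    obtain ⟨k, rfl⟩ := P.hyp.cl a ha y hy
    obtain ⟨k', hk'⟩ := hbij.2 k
    refine ⟨k' * PresentedGroup.of Cfsg.Spor.Fi22.Gen.a * k'⁻¹, isConj_iff.2 ⟨k', rfl⟩, ?_⟩
    show f (k' * _ * k'⁻¹) = _
    rw [map_mul, map_mul, map_inv, hfa, hk']
    rfl

end Cfsg.Agent.M22Trans.W
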