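import Cfsg.Agent.M22Trans.W.Hexads

/-!
Coordinates on the link of a transposition in a group of type M(22), and six link members whose
non-commuting graph is a path.
-/

set_option autoImplicit false

set_option linter.unusedSectionVars false

namespace Cfsg.Agent.M22Trans.W

open Cfsg.Agent.ThreeTransp45 Cfsg.Agent.SporB Cfsg.Agent.TTLink Cfsg.Agent.TTLink.UnitarySix
  Cfsg.Agent.TTClass.UnitF4

variable {G : Type*} [Group G] [Finite G] {D : Set G}

/-- Coordinates on the link of `a`, compatible with the cover. -/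
structure Co (D : Set G) {F : Type} [Field F] [Fintype F] (hF : Fintype.card F = 4) (a : G) where
  cv : Cover D hF a
  φ : G → (Fin 6 → F)
  iso : ∀ y ∈ link D a, H (φ y) (φ y) = 0
  ne : ∀ y ∈ link D a, φ y ≠ 0
  spec : ∀ c : ↥(Subgroup.centralizer ({a} : Set G)), (c : G) ∈ link D a → cv.π c = tt hF (φ c)

namespace Co

theorem exists_co (P : M22Prim D) {a : G} (ha : a ∈ D) :
    ∃ (F : Type) (_ : Field F) (_ : Fintype F) (hF : Fintype.card F = 4), Nonempty (Co D hF a) := by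
  classical
  obtain ⟨F, i1, i2, hF, hcov, -⟩ := P.covers
  obtain ⟨cv⟩ := hcov a ha
  have hp : ∀ c : ↥(Subgroup.centralizer ({a} : Set G)), (c : G) ∈ link D a →
      ∃ p : Fin 6 → F, H p p = 0 ∧ p ≠ 0 ∧ tt hF p = cv.π c := fun c hc => cv.map_mem hc
  choose f h1 h2 h3 using hp
  let φ : G → (Fin 6 → F) := fun y => if hy : y ∈ link D a then
    f ⟨y, Subgroup.mem_centralizer_singleton_iff.2 hy.2.2.symm.eq⟩ hy else 0
  refine ⟨F, i1, i2, hF, ⟨⟨cv, φ, fun y hy => ?_, fun y hy => ?_, fun c hc => ?_⟩⟩⟩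
  · simp only [φ, dif_pos hy]; exact h1 _ _
  · simp only [φ, dif_pos hy]; exact h2 _ _
  · simp only [φ, dif_pos hc]
    rw [h3]

variable {F : Type} [Field F] [Fintype F] {hF : Fintype.card F = 4} {a : G} (C : Co D hF a)
include C

/-- A link member as an element of the centraliser. -/
abbrev up {y : G} (hy : y ∈ link D a) : ↥(Subgroup.centralizer ({a} : Set G)) :=
  ⟨y, Subgroup.mem_centralizer_singleton_iff.2 hy.2.2.symm.eq⟩

theorem orth {y z : G} (hy : y ∈ link D a) (hz : z ∈ link D a) :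
    Commute y z ↔ H (C.φ y) (C.φ z) = 0 := by
  constructor
  · intro h
    refine orth_of_tt hF (C.iso y hy) (C.ne y hy) (C.iso z hz) (C.ne z hz) ?_
    rw [← C.spec (up hy) hy, ← C.spec (up hz) hz]
    exact (show Commute (up hy) (up hz) from Subtype.ext h.eq).map C.cv.π
  · intro h
    refine C.cv.refl (up hy) (up hz) hz ?_
    rw [C.spec (up hy) hy, C.spec (up hz) hz]
    exact tt_commute hF (C.iso y hy) (C.iso z hz) h

theorem pt {w : Fin 6 → F} (hw : H w w = 0) (hw0 : w ≠ 0) :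
    ∃ y ∈ link D a, ∃ c : F, c ≠ 0 ∧ C.φ y = c • w := by
  obtain ⟨Y, hY, e⟩ := C.cv.exists_lift (show tt hF w ∈ allTT hF from ⟨w, hw, hw0, rfl⟩)
  refine ⟨(Y : G), hY, ?_⟩
  obtain ⟨c, hc⟩ := tt_inj hF hw hw0 (C.iso _ hY) (C.ne _ hY) (by rw [← C.spec Y hY, e])
  exact ⟨c, fun h0 => C.ne _ hY (by rw [hc, h0, zero_smul]), hc⟩

theorem inj {y z : G} (hy : y ∈ link D a) (hz : z ∈ link D a) {c : F} (e : C.φ z = c • C.φ y) :
    y = z := by
  have : C.cv.π (up hy) = C.cv.π (up hz) := by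
    rw [C.spec (up hy) hy, C.spec (up hz) hz]
    exact ((tt_fibre hF (C.iso y hy) (C.ne y hy)).2
      ⟨c, fun h0 => C.ne z hz (by rw [e, h0, zero_smul]), e.symm⟩).2.2.symm
  exact congrArg Subtype.val (C.cv.inj (show up hy ∈ {c : ↥(Subgroup.centralizer ({a} : Set G)) | (c : G) ∈ link D a} from hy)
    (show up hz ∈ {c : ↥(Subgroup.centralizer ({a} : Set G)) | (c : G) ∈ link D a} from hz) this)

theorem conj (hD : Data D) {y z : G} (hy : y ∈ link D a) (hz : z ∈ link D a) :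
    z * y * z ∈ link D a ∧ ∃ c : F, c ≠ 0 ∧ C.φ (z * y * z) = c • (C.φ y + H (C.φ y) (C.φ z) • C.φ z) := by
  set Z := up (D := D) hz
  set Y := up (D := D) hy
  have e0 : z * y * z = cj z y := by show _ = z * y * z⁻¹; rw [hD.inv_eq hz.1]
  have hl : z * y * z ∈ link D a := by
    have ea : cj z a = a := (cj_eq_self_iff z a).2 hz.2.2.symm
    rw [e0]
    refine ⟨hD.inv' z y hy.1, fun h => hy.2.1 (cj_injective z (h.trans ea.symm)), ?_⟩
    rw [← ea]
    exact (cj_commute_iff z a y).2 hy.2.2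
  refine ⟨hl, ?_⟩
  set p := C.φ y
  set q := C.φ z
  set W := act (tSU hF q (C.iso z hz)) p
  have hc : H W W = 0 := by rw [act_iso]; exact C.iso y hy
  have hw0 : W ≠ 0 := fun e => C.ne y hy (act_injective _ (e.trans (act_zero _).symm))
  have e : tt hF W = C.cv.π (up hl) := by
    rw [show up (D := D) hl = Z * Y * Z⁻¹ from Subtype.ext (by show z * y * z = z * y * z⁻¹; rw [hD.inv_eq hz.1]),
      map_mul, map_mul, map_inv, C.spec Z hz, C.spec Y hy, tt_eq hF hc, tt_eq hF (C.iso y hy),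
      tt_eq hF (C.iso z hz), ← map_inv, ← map_mul, ← map_mul]
    exact congrArg _ (act_ext fun x => by
      rw [act_tSU, conj_tv hF _ (act_tSU hF p (C.iso y hy))])
  obtain ⟨c, hc'⟩ := tt_inj hF hc hw0 (C.iso _ hl) (C.ne _ hl) (by rw [e, ← C.spec (up hl) hl])
  refine ⟨c, fun h0 => C.ne _ hl (by rw [hc', h0, zero_smul]), ?_⟩
  rw [hc']
  show c • act (tSU hF q (C.iso z hz)) p = _
  rw [act_tSU]

end Co

section

variable {F : Type} [Field F]

/-- The combination of six vectors. -/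
def comb (v : Fin 6 → (Fin 6 → F)) (x : Fin 6 → F) : Fin 6 → F :=
  x 0 • v 0 + x 1 • v 1 + x 2 • v 2 + x 3 • v 3 + x 4 • v 4 + x 5 • v 5

/-- The form of a path in the coordinates. -/
def form (x y : Fin 6 → F) : F :=
  x 0 * y 1 ^ 2 + x 1 * (y 0 ^ 2 + y 2 ^ 2) + x 2 * (y 1 ^ 2 + y 3 ^ 2) + x 3 * (y 2 ^ 2 + y 4 ^ 2) +
    x 4 * (y 3 ^ 2 + y 5 ^ 2) + x 5 * y 4 ^ 2

theorem comb_add (v : Fin 6 → (Fin 6 → F)) (x y : Fin 6 → F) : comb v (x + y) = comb v x + comb v y := by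
  simp only [comb, Pi.add_apply, add_smul]; abel

theorem comb_smul (v : Fin 6 → (Fin 6 → F)) (c : F) (x : Fin 6 → F) : comb v (c • x) = c • comb v x := by
  simp only [comb, Pi.smul_apply, smul_eq_mul, smul_add, smul_smul]

theorem comb_sub (v : Fin 6 → (Fin 6 → F)) (x y : Fin 6 → F) : comb v (x - y) = comb v x - comb v y := by
  simp only [comb, Pi.sub_apply, sub_smul]; abel

end

/-- Six members of the link of `a` forming a path, with normalised vectors. -/
structure Bas {F : Type} [Field F] [Fintype F] {hF : Fintype.card F = 4} {a : G} (C : Co D hF a)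
    (p : Fin 6 → G) where
  v : Fin 6 → (Fin 6 → F)
  mem : ∀ k, p k ∈ link D a
  scal : ∀ k, ∃ c : F, c ≠ 0 ∧ C.φ (p k) = c • v k
  gram : ∀ i j : Fin 6, H (v i) (v j) = if (i : ℕ) + 1 = j ∨ (j : ℕ) + 1 = i then 1 else 0

namespace Bas

variable {F : Type} [Field F] [Fintype F] {hF : Fintype.card F = 4} {a : G} {C : Co D hF a}

theorem exists_bas {p : Fin 6 → G} (mem : ∀ k, p k ∈ link D a)
    (pat : ∀ i j : Fin 6, Commute (p i) (p j) ↔ ¬((i : ℕ) + 1 = j ∨ (j : ℕ) + 1 = i)) :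
    Nonempty (Bas C p) := by
  have hstep : ∀ (u : Fin 6 → F) (k l : Fin 6), (k : ℕ) + 1 = l → (∃ c : F, c ≠ 0 ∧ u = c • C.φ (p k)) →
      ∃ u' : Fin 6 → F, (∃ c : F, c ≠ 0 ∧ u' = c • C.φ (p l)) ∧ H u u' = 1 := by
    rintro u k l hkl ⟨c, hc, rfl⟩
    have hne : H (c • C.φ (p k)) (C.φ (p l)) ≠ 0 := by
      rw [h_smul_left]
      exact mul_ne_zero hc fun e => (pat k l).1 ((C.orth (mem k) (mem l)).2 e) (Or.inl hkl)
    refine ⟨_, ⟨_, hne, rfl⟩, ?_⟩
    rw [h_smul_right, ← pow_succ]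
    exact cube hF hne
  obtain ⟨u1, s1, e1⟩ := hstep (C.φ (p 0)) 0 1 rfl ⟨1, one_ne_zero, (one_smul _ _).symm⟩
  obtain ⟨u2, s2, e2⟩ := hstep u1 1 2 rfl s1
  obtain ⟨u3, s3, e3⟩ := hstep u2 2 3 rfl s2
  obtain ⟨u4, s4, e4⟩ := hstep u3 3 4 rfl s3
  obtain ⟨u5, s5, e5⟩ := hstep u4 4 5 rfl s4
  let v : Fin 6 → (Fin 6 → F) := ![C.φ (p 0), u1, u2, u3, u4, u5]
  have hv : ∀ k, ∃ c : F, c ≠ 0 ∧ v k = c • C.φ (p k) := by
    intro k; fin_cases k
    exacts [⟨1, one_ne_zero, (one_smul _ _).symm⟩, s1, s2, s3, s4, s5]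
  have adj : ∀ i j : Fin 6, (i : ℕ) + 1 = j → H (v i) (v j) = 1 := by
    intro i j hij
    fin_cases i <;> fin_cases j <;> first | exact absurd hij (by decide) | assumption
  refine ⟨⟨v, mem, fun k => ?_, fun i j => ?_⟩⟩
  · obtain ⟨c, hc, e⟩ := hv k
    exact ⟨c⁻¹, inv_ne_zero hc, by rw [e, inv_smul_smul₀ hc]⟩
  · split
    · rename_i h
      rcases h with h | h
      · exact adj i j h
      · rw [h_symm hF (v j) (v i), adj j i h, one_pow]
    · rename_i h
      obtain ⟨c, -, ei⟩ := hv i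
      obtain ⟨c', -, ej⟩ := hv j
      rw [ei, ej, h_smul_left, h_smul_right, (C.orth (mem i) (mem j)).1 ((pat i j).2 h)]
      simp

variable {p : Fin 6 → G} (B : Bas C p)
include B

theorem h_comb (x y : Fin 6 → F) : H (comb B.v x) (comb B.v y) = form x y := by
  simp only [comb, h_add_left, h_smul_left, h_add_right hF, h_smul_right, B.gram]
  simp [form]
  ring

theorem h_right (x : Fin 6 → F) (k : Fin 6) :
    H (comb B.v x) (B.v k) = form x (fun j => if j = k then 1 else 0) := by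
  rw [← B.h_comb]
  congr 1
  fin_cases k <;> simp [comb]

theorem comb_inj : Function.Injective (comb B.v) := by
  intro x y e
  have h : ∀ k, form (x - y) (fun j => if j = k then 1 else 0) = 0 := fun k => by
    rw [← B.h_right, comb_sub, e, sub_self, h_zero_left]
  set z := x - y with hz
  have h0 := h 0; have h1 := h 1; have h2 := h 2; have h3 := h 3; have h4 := h 4; have h5 := h 5
  simp [form] at h0 h1 h2 h3 h4 h5
  have k2 : z 2 = 0 := by linear_combination h3 - h5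
  have k3 : z 3 = 0 := by linear_combination h2 - h0
  have k : z = 0 := by
    funext k
    fin_cases k
    · show z 0 = 0; linear_combination h1 - k2
    · exact h0
    · exact k2
    · exact k3
    · exact h5
    · show z 5 = 0; linear_combination h4 - k3
  exact sub_eq_zero.1 k

theorem comb_surj : Function.Surjective (comb B.v) := Finite.surjective_of_injective B.comb_inj

/-- The member `y` has coordinates `x`. -/
def Pt (y : G) (x : Fin 6 → F) : Prop := y ∈ link D a ∧ ∃ k : F, k ≠ 0 ∧ C.φ y = k • comb B.v x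

theorem pt_self (k : Fin 6) : B.Pt (p k) (fun j => if j = k then 1 else 0) := by
  refine ⟨B.mem k, ?_⟩
  obtain ⟨c, hc, e⟩ := B.scal k
  refine ⟨c, hc, ?_⟩
  rw [e]
  congr 1
  fin_cases k <;> simp [comb]

theorem pt_exists {x : Fin 6 → F} (hx : form x x = 0) (hx0 : x ≠ 0) : ∃ y, B.Pt y x := by
  obtain ⟨y, hy, c, hc, e⟩ := C.pt (w := comb B.v x) (by rw [B.h_comb, hx]) fun e => hx0 (B.comb_inj (by
    rw [e]; simp [comb]))
  exact ⟨y, hy, c, hc, e⟩

theorem pt_coord {y : G} (hy : y ∈ link D a) : ∃ x, x ≠ 0 ∧ form x x = 0 ∧ B.Pt y x := by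
  obtain ⟨x, hx⟩ := B.comb_surj (C.φ y)
  refine ⟨x, fun e => C.ne y hy ?_, ?_, hy, 1, one_ne_zero, by rw [hx, one_smul]⟩
  · rw [← hx, e]; simp [comb]
  · rw [← B.h_comb, hx, C.iso y hy]

theorem pt_commute {y z : G} {x x' : Fin 6 → F} (hy : B.Pt y x) (hz : B.Pt z x') :
    Commute y z ↔ form x x' = 0 := by
  obtain ⟨hy, k, hk, ey⟩ := hy
  obtain ⟨hz, l, hl, ez⟩ := hz
  rw [C.orth hy hz, ey, ez, h_smul_left, h_smul_right, B.h_comb]
  simp [hk, hl]

theorem pt_smul {y : G} {x : Fin 6 → F} (hy : B.Pt y x) {c : F} (hc : c ≠ 0) : B.Pt y (c • x) := by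
  obtain ⟨hy, k, hk, ey⟩ := hy
  exact ⟨hy, k * c⁻¹, mul_ne_zero hk (inv_ne_zero hc), by
    rw [ey, comb_smul, smul_smul, inv_mul_cancel_right₀ hc]⟩

theorem pt_unique {y z : G} {x : Fin 6 → F} (hy : B.Pt y x) (hz : B.Pt z x) : y = z := by
  obtain ⟨hy, k, hk, ey⟩ := hy
  obtain ⟨hz, l, -, ez⟩ := hz
  exact C.inj hy hz (c := l * k⁻¹) (by rw [ey, ez, smul_smul, inv_mul_cancel_right₀ hk])

theorem pt_conj (hD : Data D) {y z : G} {x x' : Fin 6 → F} (hy : B.Pt y x) (hz : B.Pt z x') :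
    B.Pt (z * y * z) (x + form x x' • x') := by
  obtain ⟨hy, k, hk, ey⟩ := hy
  obtain ⟨hz, l, hl, ez⟩ := hz
  obtain ⟨hl', c, hc, e⟩ := C.conj hD hy hz
  refine ⟨hl', c * k, mul_ne_zero hc hk, ?_⟩
  rw [e, ey, ez, h_smul_left, h_smul_right, B.h_comb, comb_add, comb_smul, smul_smul, mul_smul c k,
    smul_add, smul_add, smul_add, smul_smul k]
  congr 3
  linear_combination k * form x x' * cube hF hl

end Bas

end Cfsg.Agent.M22Trans.W
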