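import Cfsg.Agent.M22Trans.W.Classes
import Cfsg.Agent.TTLink.M22Hexads

/-!
Hexads.
Adapted from `TTLink/M22Hexads.lean`: the structure here asks for the weaker `M22Hyp` instead of `IsOfTypeM22`.
-/

set_option autoImplicit false
set_option linter.unusedSectionVars false

namespace Cfsg.Agent.M22Trans.W

open Cfsg.Agent.TTLink Cfsg.Agent.ThreeTransp45 Cfsg.Agent.SporB UnitarySix TTClass.UnitF4

variable {G : Type*} [Group G] [Finite G] {D : Set G}

namespace M22Prim

variable (P : M22Prim D)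
include P

theorem hset_list {a b c : G} (h : Fac D [a, b, c]) :
    ∃ s : List G, Fac D s ∧ s.length = 6 ∧ s.prod = 1 ∧ ∀ y, y ∈ s ↔ y ∈ hset D a b c := by
  have hn := h.nodup
  simp only [List.nodup_cons, List.mem_cons, List.not_mem_nil, or_false, not_or, not_false_eq_true,
    List.nodup_nil, and_true] at hn
  obtain ⟨s, h1, h2, h3, h4⟩ := hexad P.grp P.prim P.hyp (h.mem a (by simp)) (h.mem b (by simp))
    (h.mem c (by simp)) hn.1.1 hn.1.2 hn.2 (h.comm a (by simp) b (by simp))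
    (h.comm a (by simp) c (by simp)) (h.comm b (by simp) c (by simp))
  refine ⟨s, ⟨h1, fun y hy => ((h4 y).1 hy).1, fun y hy z hz => ?_⟩, h2, h3, h4⟩
  obtain ⟨y1, y2, y3, y4, -⟩ := (h4 y).1 hy
  exact ((h4 z).1 hz).2.2.2.2 y y1 y2 y3 y4

omit [Finite G] P in
theorem mem_hset_self {a b c : G} (h : Fac D [a, b, c]) :
    a ∈ hset D a b c ∧ b ∈ hset D a b c ∧ c ∈ hset D a b c := by
  obtain ⟨-, hm, hc⟩ := h
  simp only [List.mem_cons, List.not_mem_nil, or_false, forall_eq_or_imp, forall_eq] at hm hc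
  obtain ⟨⟨c1, c2, c3⟩, ⟨c4, c5, c6⟩, ⟨c7, c8, c9⟩⟩ := hc
  exact ⟨⟨hm.1, c1, c2, c3, fun _ _ h _ _ => h⟩, ⟨hm.2.1, c4, c5, c6, fun _ _ _ h _ => h⟩,
    ⟨hm.2.2, c7, c8, c9, fun _ _ _ _ h => h⟩⟩

theorem fac_of_hset {a b c : G} (h : Fac D [a, b, c]) {p q r : G} (hp : p ∈ hset D a b c)
    (hq : q ∈ hset D a b c) (hr : r ∈ hset D a b c) (hpq : p ≠ q) (hpr : p ≠ r) (hqr : q ≠ r) :
    Fac D [p, q, r] := by
  obtain ⟨s, hs, -, -, hm⟩ := P.hset_list h
  have mem : ∀ z ∈ [p, q, r], z ∈ s := by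
    intro z hz
    simp only [List.mem_cons, List.not_mem_nil, or_false] at hz
    rcases hz with rfl | rfl | rfl
    exacts [(hm _).2 hp, (hm _).2 hq, (hm _).2 hr]
  exact ⟨by simp [hpq, hpr, hqr], fun z hz => hs.mem z (mem z hz),
    fun y hy z hz => hs.comm y (mem y hy) z (mem z hz)⟩

/-- Six commuting transpositions with product one are the hexad of any three of them. -/
theorem hset_of_six {s : List G} (hs : Fac D s) (hl : s.length = 6) (hp : s.prod = 1) {p q r : G}
    (hp' : p ∈ s) (hq : q ∈ s) (hr : r ∈ s) (hpq : p ≠ q) (hpr : p ≠ r) (hqr : q ≠ r) :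
    ∀ y, y ∈ s ↔ y ∈ hset D p q r := by
  classical
  have hD := P.data
  have f3 : Fac D [p, q, r] := ⟨by simp [hpq, hpr, hqr],
    fun z hz => hs.mem z (by simp only [List.mem_cons, List.not_mem_nil, or_false] at hz
                             rcases hz with rfl | rfl | rfl <;> assumption),
    fun y hy z hz => hs.comm y (by simp only [List.mem_cons, List.not_mem_nil, or_false] at hy
                                   rcases hy with rfl | rfl | rfl <;> assumption)
      z (by simp only [List.mem_cons, List.not_mem_nil, or_false] at hz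
            rcases hz with rfl | rfl | rfl <;> assumption)⟩
  have k2 : q ∈ s.erase p := (List.mem_erase_of_ne (Ne.symm hpq)).2 hq
  have k3 : r ∈ (s.erase p).erase q :=
    (List.mem_erase_of_ne (Ne.symm hqr)).2 ((List.mem_erase_of_ne (Ne.symm hpr)).2 hr)
  set t := ((s.erase p).erase q).erase r
  have hperm : s.Perm (p :: q :: r :: t) := (List.perm_cons_erase hp').trans
    (((List.perm_cons_erase k2).trans ((List.perm_cons_erase k3).cons _)).cons _)
  have hprod := fac_perm_prod hs.comm hperm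
  rw [hp, List.prod_cons, List.prod_cons, List.prod_cons, ← mul_assoc, ← mul_assoc] at hprod
  have hsub : ∀ y ∈ s, y ∈ hset D p q r := fun y hy => by
    refine ⟨hs.mem y hy, hs.comm y hy p hp', hs.comm y hy q hq, hs.comm y hy r hr,
      fun x hx xp xq xr => ?_⟩
    have hy' := hperm.mem_iff.1 hy
    simp only [List.mem_cons] at hy'
    rcases hy' with rfl | rfl | rfl | hy'
    · exact xp
    · exact xq
    · exact xr
    refine commute_prod hD (fac_erase (fac_erase (fac_erase hs p) q) r) ?_ hx ?_ y hy'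
    · have := hperm.length_eq
      simp only [List.length_cons, hl] at this
      show t.length ≤ 3
      omega
    · show Commute x t.prod
      rw [eq_inv_of_mul_eq_one_right hprod.symm]
      exact ((xp.mul_right xq).mul_right xr).inv_right
  obtain ⟨s', hs', hl', -, hm'⟩ := P.hset_list f3
  intro y
  rw [← hm' y]
  exact ((List.subperm_of_subset hs.nodup fun z hz => (hm' z).2 (hsub z hz)).perm_of_length_le
    (by omega)).mem_iff

theorem hset_eq {a b c : G} (h : Fac D [a, b, c]) {p q r : G} (hp : p ∈ hset D a b c)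
    (hq : q ∈ hset D a b c) (hr : r ∈ hset D a b c) (hpq : p ≠ q) (hpr : p ≠ r) (hqr : q ≠ r) :
    hset D p q r = hset D a b c := by
  obtain ⟨s, hs, hl, hpd, hm⟩ := P.hset_list h
  ext y
  rw [← hm y]
  exact (P.hset_of_six hs hl hpd ((hm _).2 hp) ((hm _).2 hq) ((hm _).2 hr) hpq hpr hqr y).symm

theorem hset_ncard {a b c : G} (h : Fac D [a, b, c]) : (hset D a b c).ncard = 6 := by
  classical
  obtain ⟨s, hs, hl, -, hm⟩ := P.hset_list h
  rw [show hset D a b c = ↑s.toFinset from Set.ext fun y => by simp [hm y], Set.ncard_coe_finset,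
    List.toFinset_card_of_nodup hs.nodup, hl]

end M22Prim

namespace M22Prim

variable (P : M22Prim D) {R : Set G} (hR : IsHex D R)
include P hR

theorem hex_mem {r : G} (hr : r ∈ R) : r ∈ D := by
  obtain ⟨a, b, c, -, rfl⟩ := hR
  exact hr.1

theorem hex_comm {r s : G} (hr : r ∈ R) (hs : s ∈ R) : Commute r s := by
  obtain ⟨a, b, c, h, rfl⟩ := hR
  exact hs.2.2.2.2 r hr.1 hr.2.1 hr.2.2.1 hr.2.2.2.1

theorem hex_eq {p q r : G} (hp : p ∈ R) (hq : q ∈ R) (hr : r ∈ R) (hpq : p ≠ q) (hpr : p ≠ r)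
    (hqr : q ≠ r) : Fac D [p, q, r] ∧ hset D p q r = R := by
  obtain ⟨a, b, c, h, rfl⟩ := hR
  exact ⟨P.fac_of_hset h hp hq hr hpq hpr hqr, P.hset_eq h hp hq hr hpq hpr hqr⟩

theorem hex_ncard : R.ncard = 6 := by
  obtain ⟨a, b, c, h, rfl⟩ := hR
  exact P.hset_ncard h

/-- Two further members of a hexad. -/
theorem hex_frame {i : G} (hi : i ∈ R) :
    ∃ b c, b ∈ R ∧ c ∈ R ∧ i ≠ b ∧ i ≠ c ∧ b ≠ c ∧ b ∈ link D i ∧ c ∈ link D i := by
  have h6 := P.hex_ncard hR
  obtain ⟨b, hb, hbi⟩ := Set.exists_ne_of_one_lt_ncard (s := R) (by omega) i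
  obtain ⟨c, hc, hc'⟩ : ∃ c ∈ R, c ∉ ({i, b} : Set G) :=
    Set.exists_mem_notMem_of_ncard_lt_ncard (by
      have := Set.ncard_insert_le i ({b} : Set G)
      rw [Set.ncard_singleton] at this
      omega) (Set.toFinite _)
  simp only [Set.mem_insert_iff, Set.mem_singleton_iff, not_or] at hc'
  exact ⟨b, c, hb, hc, hbi.symm, Ne.symm hc'.1, Ne.symm hc'.2,
    ⟨P.hex_mem hR hb, hbi, P.hex_comm hR hi hb⟩, ⟨P.hex_mem hR hc, hc'.1, P.hex_comm hR hi hc⟩⟩

omit [Finite G] in
theorem adj_link {i g : G} (hi : i ∈ R) (hg : Adj D R g) : g ∈ link D i :=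
  ⟨hg.1, fun e => hg.2.1 (e ▸ hi), (hg.2.2 i hi).symm⟩

section coord

variable {F : Type} [Field F] [Fintype F] (hF : Fintype.card F = 4) {i : G} (hi : i ∈ R)
  (V : Vec D (F := F) i) {b c : G} (hb : b ∈ R) (hc : c ∈ R) (hib : i ≠ b) (hic : i ≠ c) (hbc : b ≠ c)
include hF hi hb hc hib hic hbc

theorem frame_indep {α β : F} (h : α • V.φ b + β • V.φ c = 0) : α = 0 ∧ β = 0 := by
  have lb : b ∈ link D i := ⟨P.hex_mem hR hb, hib.symm, P.hex_comm hR hi hb⟩
  have lc : c ∈ link D i := ⟨P.hex_mem hR hc, hic.symm, P.hex_comm hR hi hc⟩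
  by_cases hβ : β = 0
  · rw [hβ, zero_smul, add_zero] at h
    exact ⟨(smul_eq_zero.1 h).resolve_right (V.ne b lb), hβ⟩
  exfalso
  refine hbc (V.inj b lb c lc (β⁻¹ * α) ?_)
  have h' := congrArg (fun v => β⁻¹ • v + (β⁻¹ * α) • V.φ b) h
  simp only [smul_add, smul_smul, inv_mul_cancel₀ hβ, one_smul, smul_zero, zero_add] at h'
  rw [← h', add_comm ((β⁻¹ * α) • V.φ b) (V.φ c), add_assoc, vadd_self hF, add_zero]

/-- A point orthogonal to everything orthogonal to the line is on the line. -/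
theorem mem_span_of_mem {y : G} (hy : y ∈ R) (hyi : y ≠ i) :
    ∃ α β : F, V.φ y = α • V.φ b + β • V.φ c := by
  have lb : b ∈ link D i := ⟨P.hex_mem hR hb, hib.symm, P.hex_comm hR hi hb⟩
  have lc : c ∈ link D i := ⟨P.hex_mem hR hc, hic.symm, P.hex_comm hR hi hc⟩
  have ly : y ∈ link D i := ⟨P.hex_mem hR hy, hyi, P.hex_comm hR hi hy⟩
  by_contra hno
  obtain ⟨s, s1, s2, s3⟩ := exists_perp hF (p := V.φ b) (q := V.φ c) (r := V.φ y) (fun hm => by
    obtain ⟨α, β, h⟩ := Submodule.mem_span_pair.1 hm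
    exact hno ⟨α, β, h.symm⟩)
  obtain ⟨o, ho⟩ := exists_omega hF
  obtain ⟨μ, hμ⟩ : ∃ μ : F, μ + μ ^ 2 = H s s := by
    rcases h_self hF s with h | h
    · exact ⟨0, by rw [h]; simp⟩
    · exact ⟨o, by rw [h]; linear_combination ho - two_eq_zero hF⟩
  have ys : H (V.φ y) s = 1 := by rw [h_symm hF s (V.φ y), s3, one_pow]
  set w := s + μ • V.φ y with hw
  have w1 : H w (V.φ b) = 0 := by
    rw [hw, h_add_left, h_smul_left, s1, (V.orth y ly b lb).1 (P.hex_comm hR hy hb)]; simp
  have w2 : H w (V.φ c) = 0 := by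
    rw [hw, h_add_left, h_smul_left, s2, (V.orth y ly c lc).1 (P.hex_comm hR hy hc)]; simp
  have w3 : H w (V.φ y) = 1 := by rw [hw, h_add_left, h_smul_left, s3, V.iso y ly]; simp
  have ww : H w w = 0 := by
    rw [hw, h_add_left s (μ • V.φ y), h_smul_left, h_add_right hF s, h_add_right hF (V.φ y),
      h_smul_right, h_smul_right, s3, ys, V.iso y ly]
    linear_combination -hμ + (μ + μ ^ 2) * two_eq_zero hF
  have w0 : w ≠ 0 := fun e => by rw [e, h_zero_left] at w3; exact zero_ne_one w3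
  obtain ⟨x, hx, k, hk0, hk⟩ := V.pt w ww w0
  obtain ⟨-, hsub⟩ := P.hex_eq hR hi hb hc hib hic hbc
  have hy' : y ∈ hset D i b c := hsub.symm ▸ hy
  have : H (V.φ x) (V.φ y) = 0 := (V.orth x hx y ly).1 (hy'.2.2.2.2 x hx.1 hx.2.2.symm
    ((V.orth x hx b lb).2 (by rw [hk, h_smul_left, w1, mul_zero]))
    ((V.orth x hx c lc).2 (by rw [hk, h_smul_left, w2, mul_zero])))
  rw [hk, h_smul_left, w3, mul_one] at this
  exact hk0 this

omit hbc in
theorem mem_of_span {y : G} (hy : y ∈ link D i) (hbc : b ≠ c) {α β : F}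
    (h : V.φ y = α • V.φ b + β • V.φ c) : y ∈ R := by
  have lb : b ∈ link D i := ⟨P.hex_mem hR hb, hib.symm, P.hex_comm hR hi hb⟩
  have lc : c ∈ link D i := ⟨P.hex_mem hR hc, hic.symm, P.hex_comm hR hi hc⟩
  obtain ⟨-, hsub⟩ := P.hex_eq hR hi hb hc hib hic hbc
  rw [← hsub]
  have key : ∀ x ∈ link D i, Commute x b → Commute x c → Commute x y := fun x hx xb xc => by
    refine (V.orth x hx y hy).2 ?_
    rw [h, h_add_right hF, h_smul_right, h_smul_right, (V.orth x hx b lb).1 xb,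
      (V.orth x hx c lc).1 xc]
    simp
  refine ⟨hy.1, hy.2.2.symm, (key b lb (Commute.refl _) (P.hex_comm hR hb hc)).symm,
    (key c lc (P.hex_comm hR hc hb) (Commute.refl _)).symm, fun x hx xi xb xc => ?_⟩
  by_cases e : x = i
  · rw [e]; exact hy.2.2
  · exact key x ⟨hx, e, xi.symm⟩ xb xc

end coord

/-- A hexad through a point of `R` and two commuting further transpositions meets `R` again. -/
theorem exists_partner {i g h : G} (hi : i ∈ R) (hg : Adj D R g) (hh : Adj D R h) (hgh : g ≠ h)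
    (hc : Commute g h) : ∃ j ∈ R, j ≠ i ∧ j ∈ hset D i g h := by
  obtain ⟨F, _, _, hF, ⟨V⟩⟩ := Vec.exists_vec P.hyp (P.hex_mem hR hi)
  obtain ⟨b, c, hb, hc', hib, hic, hbc, lb, lc⟩ := P.hex_frame hR hi
  have lg := P.adj_link hR hi hg
  have lh := P.adj_link hR hi hh
  have o1 := (V.orth b lb g lg).1 (hg.2.2 b hb).symm
  have o2 := (V.orth b lb h lh).1 (hh.2.2 b hb).symm
  have o3 := (V.orth c lc g lg).1 (hg.2.2 c hc').symm
  have o4 := (V.orth c lc h lh).1 (hh.2.2 c hc').symm
  have o5 := (V.orth b lb c lc).1 (P.hex_comm hR hb hc')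
  have o6 := (V.orth g lg h lh).1 hc
  obtain ⟨α, β, γ, δ, hne, heq⟩ := iso_meet hF (p := V.φ b) (q := V.φ c) (r := V.φ g) (s := V.φ h)
    (fun u v => by
      fin_cases u <;> fin_cases v <;>
        simp only [Matrix.cons_val_zero, Matrix.cons_val_one, Matrix.cons_val] <;>
        first | exact V.iso _ ‹_› | assumption | exact h_rev_zero hF ‹_›)
  set w := α • V.φ b + β • V.φ c with hw
  have w0 : w ≠ 0 := fun e => by
    obtain ⟨rfl, rfl⟩ := P.frame_indep hR hF hi V hb hc' hib hic hbc e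
    rw [e] at heq
    by_cases hδ : δ = 0
    · subst hδ
      rw [zero_smul, add_zero] at heq
      rcases smul_eq_zero.1 heq.symm with hγ | hγ
      · simp [hγ] at hne
      · exact V.ne g lg hγ
    · refine hgh (V.inj g lg h lh (δ⁻¹ * γ) ?_)
      have h' := congrArg (fun v => δ⁻¹ • v + (δ⁻¹ * γ) • V.φ g) heq
      simp only [smul_add, smul_smul, inv_mul_cancel₀ hδ, one_smul, smul_zero, zero_add] at h'
      rw [h', add_comm ((δ⁻¹ * γ) • V.φ g) (V.φ h), add_assoc, vadd_self hF, add_zero]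
  have ww : H w w = 0 := by
    simp only [hw, h_add_left, h_smul_left, h_add_right hF, h_smul_right, V.iso b lb, V.iso c lc, o5,
      h_rev_zero hF o5]
    simp
  obtain ⟨y, hy, k, hk0, hk⟩ := V.pt w ww w0
  have key : ∀ x ∈ link D i, Commute x g → Commute x h → Commute x y := fun x hx xg xh => by
    refine (V.orth x hx y hy).2 ?_
    rw [hk, heq, h_smul_right, h_add_right hF, h_smul_right, h_smul_right, (V.orth x hx g lg).1 xg,
      (V.orth x hx h lh).1 xh]
    simp
  refine ⟨y, P.mem_of_span hR hF hi V hb hc' hib hic hy hbc (α := k * α) (β := k * β)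
    (by rw [hk, hw, smul_add, smul_smul, smul_smul]), hy.2.1, hy.1, hy.2.2.symm,
    (key g lg (Commute.refl _) hc).symm, (key h lh hc.symm (Commute.refl _)).symm, fun x hx xi xg xh => ?_⟩
  by_cases e : x = i
  · rw [e]; exact hy.2.2
  · exact key x ⟨hx, e, xi.symm⟩ xg xh

/-- Commuting is transitive outside the hexad. -/
theorem adj_trans {g h k : G} (hg : Adj D R g) (hh : Adj D R h) (hk : Adj D R k)
    (gh : Commute g h) (hk' : Commute h k) : Commute g k := by
  by_cases e : g = h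
  · rw [e]; exact hk'
  obtain ⟨i, hi⟩ : R.Nonempty := Set.nonempty_of_ncard_ne_zero (by rw [P.hex_ncard hR]; norm_num)
  obtain ⟨F, _, _, hF, ⟨V⟩⟩ := Vec.exists_vec P.hyp (P.hex_mem hR hi)
  obtain ⟨b, c, hb, hc', hib, hic, hbc, lb, lc⟩ := P.hex_frame hR hi
  have lg := P.adj_link hR hi hg
  have lh := P.adj_link hR hi hh
  have lk := P.adj_link hR hi hk
  have o1 := (V.orth b lb g lg).1 (hg.2.2 b hb).symm
  have o2 := (V.orth b lb h lh).1 (hh.2.2 b hb).symm
  have o3 := (V.orth c lc g lg).1 (hg.2.2 c hc').symm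
  have o4 := (V.orth c lc h lh).1 (hh.2.2 c hc').symm
  have o5 := (V.orth b lb c lc).1 (P.hex_comm hR hb hc')
  have o6 := (V.orth g lg h lh).1 gh
  obtain ⟨α, β, γ, δ, hne, heq⟩ := iso_meet hF (p := V.φ b) (q := V.φ c) (r := V.φ g) (s := V.φ h)
    (fun u v => by
      fin_cases u <;> fin_cases v <;>
        simp only [Matrix.cons_val_zero, Matrix.cons_val_one, Matrix.cons_val] <;>
        first | exact V.iso _ ‹_› | assumption | exact h_rev_zero hF ‹_›)
  refine ((V.orth k lk g lg).2 ?_).symm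
  have hh' := congrArg (fun v => H v (V.φ k)) heq
  simp only [h_add_left, h_smul_left, (V.orth b lb k lk).1 (hk.2.2 b hb).symm,
    (V.orth c lc k lk).1 (hk.2.2 c hc').symm, (V.orth h lh k lk).1 hk', mul_zero, add_zero] at hh'
  rcases mul_eq_zero.1 hh'.symm with hγ | hγ
  · exfalso
    subst hγ
    rw [zero_smul, zero_add] at heq
    have hδ : δ ≠ 0 := fun hδ => by
      subst hδ
      rw [zero_smul] at heq
      obtain ⟨rfl, rfl⟩ := P.frame_indep hR hF hi V hb hc' hib hic hbc heq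
      simp at hne
    refine hh.2.1 (P.mem_of_span hR hF hi V hb hc' hib hic lh hbc (α := δ⁻¹ * α) (β := δ⁻¹ * β) ?_)
    rw [mul_smul, mul_smul, ← smul_add, heq, inv_smul_smul₀ hδ]
  · exact h_rev_zero hF hγ

/-- There are at most three classes. -/
theorem adj_three {g h k : G} (hg : Adj D R g) (hh : Adj D R h) (hk : Adj D R k)
    (ngh : ¬ Commute g h) (nkg : ¬ Commute k g) (nkh : ¬ Commute k h) : Commute k (h * g * h) := by
  classical
  obtain ⟨i, hi⟩ : R.Nonempty := Set.nonempty_of_ncard_ne_zero (by rw [P.hex_ncard hR]; norm_num)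
  obtain ⟨F, _, _, hF, ⟨V⟩⟩ := Vec.exists_vec P.hyp (P.hex_mem hR hi)
  obtain ⟨b, c, hb, hc', hib, hic, hbc, lb, lc⟩ := P.hex_frame hR hi
  have lg := P.adj_link hR hi hg
  have lh := P.adj_link hR hi hh
  have lk := P.adj_link hR hi hk
  have o5 := (V.orth b lb c lc).1 (P.hex_comm hR hb hc')
  have zb : ∀ {u}, Adj D R u → ∀ (hu : u ∈ link D i), H (V.φ u) (V.φ b) = 0 ∧ H (V.φ u) (V.φ c) = 0 :=
    fun {u} hu hl => ⟨(V.orth u hl b lb).1 (hu.2.2 b hb), (V.orth u hl c lc).1 (hu.2.2 c hc')⟩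
  obtain ⟨gb, gc⟩ := zb hg lg
  obtain ⟨hb', hc''⟩ := zb hh lh
  obtain ⟨kb, kc⟩ := zb hk lk
  set g' := V.φ g
  set h' := V.φ h
  set k' := V.φ k
  have gh0 : H g' h' ≠ 0 := fun e => ngh ((V.orth g lg h lh).2 e)
  have hg0 : H h' g' ≠ 0 := fun e => gh0 (h_rev_zero hF e)
  have kg0 : H k' g' ≠ 0 := fun e => nkg ((V.orth k lk g lg).2 e)
  have kh0 : H k' h' ≠ 0 := fun e => nkh ((V.orth k lk h lh).2 e)
  have hli : LinearIndependent F ![V.φ b, V.φ c, g', h'] := by
    rw [Fintype.linearIndependent_iff]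
    intro a ha
    simp only [Fin.sum_univ_four, Matrix.cons_val_zero, Matrix.cons_val_one, Matrix.cons_val] at ha
    have e1 := congrArg (fun v => H v g') ha
    have e2 := congrArg (fun v => H v h') ha
    simp only [h_add_left, h_smul_left, h_zero_left, h_rev_zero hF gb, h_rev_zero hF gc,
      h_rev_zero hF hb', h_rev_zero hF hc'', mul_zero, add_zero, zero_add,
      show H g' g' = 0 from V.iso g lg, show H h' h' = 0 from V.iso h lh] at e1 e2
    have a3 : a 3 = 0 := (mul_eq_zero.1 e1).resolve_right hg0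
    have a2 : a 2 = 0 := (mul_eq_zero.1 e2).resolve_right gh0
    rw [a2, a3, zero_smul, add_zero, zero_smul, add_zero] at ha
    obtain ⟨a0, a1⟩ := P.frame_indep hR hF hi V hb hc' hib hic hbc ha
    intro j; fin_cases j <;> assumption
  let f : (Fin 6 → F) →ₗ[F] (Fin 4 → F) :=
    { toFun := fun u j => H u (![V.φ b, V.φ c, g', h'] j)
      map_add' := fun a b => funext fun j => h_add_left a b _
      map_smul' := fun c a => funext fun j => h_smul_left c a _ }
  have hker : Module.finrank F (LinearMap.ker f) + 4 = 6 := perp_map_surj hF hli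
  set γ := H k' h' * (H g' h')⁻¹
  set δ := H k' g' * (H h' g')⁻¹
  set z := k' + γ • g' + δ • h' with hzdef
  have hzk : z ∈ LinearMap.ker f := by
    refine LinearMap.mem_ker.2 (funext fun j => ?_)
    fin_cases j <;> simp [f, hzdef, h_add_left, h_smul_left, kb, kc, gb, gc, hb', hc'',
      V.iso g lg, V.iso h lh, g', h'] <;>
      · rw [inv_mul_cancel_right₀ (by assumption)]; exact add_self'' hF _
  have hsp : Submodule.span F (Set.range ![V.φ b, V.φ c]) = LinearMap.ker f := by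
    have hl2 : LinearIndependent F ![V.φ b, V.φ c] := by
      rw [Fintype.linearIndependent_iff]
      intro a ha
      simp only [Fin.sum_univ_two, Matrix.cons_val_zero, Matrix.cons_val_one] at ha
      obtain ⟨a0, a1⟩ := P.frame_indep hR hF hi V hb hc' hib hic hbc ha
      intro j; fin_cases j <;> assumption
    refine Submodule.eq_of_le_of_finrank_le ?_ ?_
    · rw [Submodule.span_le]
      rintro _ ⟨j, rfl⟩
      refine LinearMap.mem_ker.2 (funext fun j' => ?_)
      fin_cases j <;> fin_cases j' <;> simp [f, V.iso b lb, V.iso c lc, o5, h_rev_zero hF o5,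
        h_rev_zero hF gb, h_rev_zero hF gc, h_rev_zero hF hb', h_rev_zero hF hc'']
    · rw [finrank_span_eq_card hl2, Fintype.card_fin]; omega
  rw [← hsp, Matrix.range_cons, Matrix.range_cons, Matrix.range_empty, Set.union_empty,
    Set.singleton_union, Submodule.mem_span_pair] at hzk
  obtain ⟨α, β, hαβ⟩ := hzk
  have zk : H z k' = 0 := by
    rw [← hαβ, h_add_left, h_smul_left, h_smul_left, h_rev_zero hF kb, h_rev_zero hF kc]; simp
  rw [hzdef, h_add_left, h_add_left, h_smul_left, h_smul_left, V.iso k lk, zero_add] at zk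
  obtain ⟨-, lw, m, -, hm⟩ : ∃ _ : True, h * g * h ∈ link D i ∧
      ∃ m : F, m ≠ 0 ∧ V.φ (h * g * h) = m • (g' + H g' h' • h') :=
    ⟨trivial, V.conj g lg h lh⟩
  refine (V.orth k lk _ lw).2 ?_
  rw [hm, h_smul_right, h_add_right hF, h_smul_right]
  have s1 : H g' k' = H k' g' ^ 2 := h_symm hF k' g'
  have s2 : H h' k' = H k' h' ^ 2 := h_symm hF k' h'
  have s3 : H h' g' = H g' h' ^ 2 := h_symm hF g' h'
  -- the relation between the three inner products
  have rel : H k' g' + H g' h' ^ 2 * H k' h' = 0 := by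
    simp only [γ, δ, s1, s2, s3] at zk
    have c3 := cube hF gh0
    rw [inv_eq_of_mul_eq_one_right (show H g' h' * H g' h' ^ 2 = 1 by linear_combination c3),
      inv_eq_of_mul_eq_one_right (show H g' h' ^ 2 * H g' h' = 1 by linear_combination c3)] at zk
    have key : H k' g' * H g' h' + H k' h' = 0 := by
      refine (mul_eq_zero.1 (show H k' g' * H k' h' * H g' h' * (H k' g' * H g' h' + H k' h') = 0 by
        linear_combination zk)).resolve_left ?_
      exact mul_ne_zero (mul_ne_zero kg0 kh0) gh0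
    linear_combination H g' h' ^ 2 * key - H k' g' * c3
  rw [rel, mul_zero]

end M22Prim

end Cfsg.Agent.M22Trans.W
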