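import Cfsg.Agent.M22Trans.W.Labels
import Cfsg.Agent.TTLink.M22Planes

/-!
Planes.
Adapted from `TTLink/M22Planes.lean`: the structure here asks for the weaker `M22Hyp` instead of `IsOfTypeM22`.
-/

set_option autoImplicit false
set_option linter.unusedSectionVars false

namespace Cfsg.Agent.M22Trans.W

open Cfsg.Agent.TTLink Cfsg.Agent.ThreeTransp45 Cfsg.Agent.SporB UnitarySix TTClass.UnitF4 SixTable

variable {G : Type*} [Group G] [Finite G] {D : Set G}

namespace M22Prim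

variable (P : M22Prim D)
include P

theorem center_trivial {b : G} (hb : b ∈ D) : ¬ ∀ y ∈ D, Commute b y := by
  intro h
  have hz : b ∈ Subgroup.center G := Subgroup.mem_center_iff.2 fun g => by
    have hle : Subgroup.closure D ≤ Subgroup.centralizer ({b} : Set G) :=
      (Subgroup.closure_le _).2 fun y hy => Subgroup.mem_centralizer_singleton_iff.2 (h y hy).eq.symm
    exact Subgroup.mem_centralizer_singleton_iff.1 (hle (P.grp.2.2 ▸ Subgroup.mem_top g))
  rw [P.center, Subgroup.mem_bot] at hz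
  exact ThreeTransp.ne_one P.data.set hb hz

/-- Some transposition commutes with neither of two commuting ones. -/
theorem exists_nc {a b : G} (ha : a ∈ D) (hb : b ∈ D) :
    ∃ c ∈ D, ¬ Commute a c ∧ ¬ Commute b c := by
  have hD := P.data
  by_contra hno
  push Not at hno
  set NA := {y | y ∈ D ∧ ¬ Commute a y}
  set M := Subgroup.closure NA
  obtain ⟨c, hc, hac⟩ : ∃ c ∈ D, ¬ Commute a c := by
    by_contra h
    push Not at h
    exact P.center_trivial ha h
  have hfix : ∀ d ∈ D, ∀ m ∈ M, cj d m ∈ M := by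
    intro d hd
    by_cases h : Commute a d
    · intro m hm
      induction hm using Subgroup.closure_induction with
      | mem y hy =>
        refine Subgroup.subset_closure ⟨hD.inv' d y hy.1, fun h' => hy.2 ?_⟩
        rw [← (cj_eq_self_iff d a).2 h.symm] at h'
        exact (cj_commute_iff _ _ _).1 h'
      | one => simp [cj]
      | mul u v _ _ hu hv => rw [cj_map_mul]; exact Subgroup.mul_mem _ hu hv
      | inv u _ hu => rw [cj_map_inv]; exact Subgroup.inv_mem _ hu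
    · intro m hm
      have hdM : d ∈ M := Subgroup.subset_closure ⟨hd, h⟩
      exact Subgroup.mul_mem _ (Subgroup.mul_mem _ hdM hm) (Subgroup.inv_mem _ hdM)
  have hn : ∀ g : G, ∀ m ∈ M, cj g m ∈ M := by
    intro g
    have hg : g ∈ Subgroup.closure D := P.grp.2.2 ▸ Subgroup.mem_top g
    induction hg using Subgroup.closure_induction'' with
    | one => intro m hm; simpa [cj] using hm
    | mem x hx => exact hfix x hx
    | inv_mem x hx => rw [hD.inv_eq hx]; exact hfix x hx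
    | mul x y _ _ hx hy => intro m hm; rw [cj_mul]; exact hx _ (hy m hm)
  refine P.center_trivial hb fun y hy => ?_
  obtain ⟨g, rfl⟩ := P.prim.1 c hc y hy
  have hle : M ≤ Subgroup.centralizer ({b} : Set G) :=
    (Subgroup.closure_le _).2 fun z hz => Subgroup.mem_centralizer_singleton_iff.2 (hno z hz.1 hz.2).eq.symm
  exact (Subgroup.mem_centralizer_singleton_iff.1 (hle (hn g c (Subgroup.subset_closure ⟨hc, hac⟩)))).symm

/-- Short products with the product of a triple lie in its hexad. -/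
theorem triple_sub {p q r : G} (hf : Fac D [p, q, r]) {t : List G} (ht : Fac D t) (hl : t.length ≤ 3)
    (hp : t.prod = [p, q, r].prod) : ∀ x ∈ t, x ∈ hset D p q r := by
  have hD := P.data
  have key : ∀ y ∈ D, Commute y p → Commute y q → Commute y r → ∀ x ∈ t, Commute y x := fun y hy h1 h2 h3 =>
    commute_prod hD ht hl hy (by
      rw [hp, List.prod_cons, List.prod_cons, List.prod_cons, List.prod_nil, mul_one]
      exact h1.mul_right (h2.mul_right h3))
  have hc := hf.comm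
  have hm := hf.mem
  simp only [List.mem_cons, List.not_mem_nil, or_false, forall_eq_or_imp, forall_eq] at hc hm
  obtain ⟨⟨c1, c2, c3⟩, ⟨c4, c5, c6⟩, ⟨c7, c8, c9⟩⟩ := hc
  exact fun x hx => ⟨ht.mem x hx, (key p hm.1 c1 c2 c3 x hx).symm, (key q hm.2.1 c4 c5 c6 x hx).symm,
    (key r hm.2.2 c7 c8 c9 x hx).symm, fun y hy h1 h2 h3 => key y hy h1 h2 h3 x hx⟩

variable {R : Set G} (hR : IsHex D R)
include hR

theorem exists_num : Nonempty (Num R) := by
  have h : Nat.card R = Nat.card (Fin 6) := by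
    rw [Nat.card_coe_set_eq, P.hex_ncard hR, Nat.card_fin]
  obtain ⟨e⟩ := Finite.card_eq.1 h
  exact ⟨⟨fun i => (e.symm i : G), fun i j hij => e.symm.injective (Subtype.ext hij),
    fun r => ⟨fun hr => ⟨e ⟨r, hr⟩, by simp⟩, fun ⟨i, hi⟩ => hi ▸ (e.symm i).2⟩⟩⟩

theorem adj_of_point {i : G} (hi : i ∈ R) {b c : G} (hb : b ∈ R) (hc : c ∈ R) (hib : i ≠ b) (hic : i ≠ c)
    (hbc : b ≠ c) {y : G} (hy : y ∈ link D i) (h1 : Commute y b) (h2 : Commute y c) (hn : y ∉ R) :
    Adj D R y := by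
  refine ⟨hy.1, hn, fun r hr => ?_⟩
  have hr' : r ∈ hset D i b c := by rw [(P.hex_eq hR hi hb hc hib hic hbc).2]; exact hr
  exact hr'.2.2.2.2 y hy.1 hy.2.2.symm h1 h2

theorem exists_adj : ∃ g, Adj D R g := by
  obtain ⟨i, hi⟩ : R.Nonempty := Set.nonempty_of_ncard_ne_zero (by rw [P.hex_ncard hR]; norm_num)
  obtain ⟨F, _, _, hF, ⟨V⟩⟩ := Vec.exists_vec P.hyp (P.hex_mem hR hi)
  obtain ⟨b, c, hb, hc, hib, hic, hbc, lb, lc⟩ := P.hex_frame hR hi
  obtain ⟨r, hr, r1, r2, hrs⟩ := off_line hF (V.iso b lb) (V.iso c lc)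
  have hr0 : r ≠ 0 := fun e => hrs (e ▸ Submodule.zero_mem _)
  obtain ⟨y, hy, k, hk0, hk⟩ := V.pt r hr hr0
  refine ⟨y, P.adj_of_point hR hi hb hc hib hic hbc hy
    ((V.orth y hy b lb).2 (by rw [hk, h_smul_left, r1, mul_zero]))
    ((V.orth y hy c lc).2 (by rw [hk, h_smul_left, r2, mul_zero])) fun h => hrs ?_⟩
  obtain ⟨α, β, e⟩ := P.mem_span_of_mem hR hF hi V hb hc hib hic hbc h hy.2.1
  refine Submodule.mem_span_pair.2 ⟨k⁻¹ * α, k⁻¹ * β, ?_⟩
  rw [mul_smul, mul_smul, ← smul_add, ← e, hk, inv_smul_smul₀ hk0]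

theorem exists_adj_nc {g : G} (hg : Adj D R g) : ∃ h, Adj D R h ∧ ¬ Commute g h := by
  obtain ⟨i, hi⟩ : R.Nonempty := Set.nonempty_of_ncard_ne_zero (by rw [P.hex_ncard hR]; norm_num)
  obtain ⟨F, _, _, hF, ⟨V⟩⟩ := Vec.exists_vec P.hyp (P.hex_mem hR hi)
  obtain ⟨b, c, hb, hc, hib, hic, hbc, lb, lc⟩ := P.hex_frame hR hi
  have lg := P.adj_link hR hi hg
  have g1 := (V.orth g lg b lb).1 (hg.2.2 b hb)
  have g2 := (V.orth g lg c lc).1 (hg.2.2 c hc)
  obtain ⟨s, s1, s2, s3⟩ := exists_perp hF (p := V.φ b) (q := V.φ c) (r := V.φ g) (fun hm => by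
    obtain ⟨α, β, h⟩ := Submodule.mem_span_pair.1 hm
    exact hg.2.1 (P.mem_of_span hR hF hi V hb hc hib hic lg hbc h.symm))
  obtain ⟨o, ho⟩ := exists_omega hF
  obtain ⟨μ, hμ⟩ : ∃ μ : F, μ + μ ^ 2 = H s s := by
    rcases h_self hF s with h | h
    · exact ⟨0, by rw [h]; simp⟩
    · exact ⟨o, by rw [h]; linear_combination ho - two_eq_zero hF⟩
  have gs : H (V.φ g) s = 1 := by rw [h_symm hF s (V.φ g), s3, one_pow]
  set w := s + μ • V.φ g with hw
  have w1 : H w (V.φ b) = 0 := by rw [hw, h_add_left, h_smul_left, s1, g1]; simp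
  have w2 : H w (V.φ c) = 0 := by rw [hw, h_add_left, h_smul_left, s2, g2]; simp
  have w3 : H w (V.φ g) = 1 := by rw [hw, h_add_left, h_smul_left, s3, V.iso g lg]; simp
  have ww : H w w = 0 := by
    rw [hw, h_add_left s (μ • V.φ g), h_smul_left, h_add_right hF s, h_add_right hF (V.φ g),
      h_smul_right, h_smul_right, s3, gs, V.iso g lg]
    linear_combination -hμ + (μ + μ ^ 2) * two_eq_zero hF
  obtain ⟨y, hy, k, hk0, hk⟩ := V.pt w ww fun e => by rw [e, h_zero_left] at w3; exact zero_ne_one w3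
  have ngy : ¬ Commute g y := fun h => by
    have := (V.orth y hy g lg).1 h.symm
    rw [hk, h_smul_left, w3, mul_one] at this
    exact hk0 this
  exact ⟨y, P.adj_of_point hR hi hb hc hib hic hbc hy
    ((V.orth y hy b lb).2 (by rw [hk, h_smul_left, w1, mul_zero]))
    ((V.orth y hy c lc).2 (by rw [hk, h_smul_left, w2, mul_zero])) (fun h => ngy (hg.2.2 y h)), ngy⟩

variable {g : G} (hg : Adj D R g)
include hg

omit [Finite G] P hR in
theorem self_mem_plane : g ∈ Plane D R g := ⟨hg.1, Commute.refl g, hg.2.2⟩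

theorem hex_sub_plane : R ⊆ Plane D R g :=
  fun r hr => ⟨P.hex_mem hR hr, (hg.2.2 r hr).symm, fun _ hs => P.hex_comm hR hr hs⟩

theorem plane_comm {y z : G} (hy : y ∈ Plane D R g) (hz : z ∈ Plane D R g) : Commute y z := by
  by_cases y' : y ∈ R
  · exact (hz.2.2 y y').symm
  by_cases z' : z ∈ R
  · exact hy.2.2 z z'
  exact P.adj_trans hR ⟨hy.1, y', hy.2.2⟩ hg ⟨hz.1, z', hz.2.2⟩ hy.2.1 hz.2.1.symm

theorem plane_self {y : G} (hy : y ∈ D) (h : ∀ z ∈ Plane D R g, Commute y z) : y ∈ Plane D R g :=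
  ⟨hy, h g ⟨hg.1, Commute.refl g, hg.2.2⟩, fun r hr => h r (P.hex_sub_plane hR hg hr)⟩

theorem hset_sub {p q r : G} (hp : p ∈ Plane D R g) (hq : q ∈ Plane D R g) (hr : r ∈ Plane D R g) :
    hset D p q r ⊆ Plane D R g := fun _ hy => P.plane_self hR hg hy.1 fun z hz =>
  (hy.2.2.2.2 z hz.1 (P.plane_comm hR hg hz hp) (P.plane_comm hR hg hz hq) (P.plane_comm hR hg hz hr)).symm

theorem plane_fac {p q r : G} (hp : p ∈ Plane D R g) (hq : q ∈ Plane D R g) (hr : r ∈ Plane D R g)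
    (hpq : p ≠ q) (hpr : p ≠ r) (hqr : q ≠ r) : Fac D [p, q, r] := by
  refine ⟨by simp [hpq, hpr, hqr], by simp [hp.1, hq.1, hr.1], ?_⟩
  have c1 := P.plane_comm hR hg hp hq
  have c2 := P.plane_comm hR hg hp hr
  have c3 := P.plane_comm hR hg hq hr
  simp [c1, c2, c3, c1.symm, c2.symm, c3.symm]

/-- The plane may be built on any of its hexads. -/
theorem rebase {R' : Set G} (hR' : IsHex D R') (hsub : R' ⊆ Plane D R g) {g' : G}
    (hg' : g' ∈ Plane D R g) (hn : g' ∉ R') : Adj D R' g' ∧ Plane D R' g' = Plane D R g := by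
  have hA : Adj D R' g' := ⟨hg'.1, hn, fun r hr => P.plane_comm hR hg hg' (hsub hr)⟩
  have hle : Plane D R g ⊆ Plane D R' g' := fun z hz =>
    ⟨hz.1, P.plane_comm hR hg hz hg', fun r hr => P.plane_comm hR hg hz (hsub hr)⟩
  exact ⟨hA, (Set.Subset.antisymm hle fun y hy => P.plane_self hR hg hy.1 fun z hz =>
    P.plane_comm hR' hA hy (hle hz)).symm⟩

theorem plane_ncard : (Plane D R g \ R).ncard = 16 := by
  classical
  obtain ⟨N⟩ := P.exists_num hR
  have hsur := P.lab_surj hR N hg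
  choose f hf1 hf2 hf3 hf4 using hsur
  have finj : Function.Injective f := fun s t e =>
    P.lab_unique hR N hg (hf1 s) (hf2 s) (hf3 s) (hf4 s) (e ▸ hf4 t)
  have e : Plane D R g \ R = insert g (Set.range f) := by
    ext y
    constructor
    · rintro ⟨hy, hn⟩
      by_cases e : y = g
      · exact Or.inl e
      right
      obtain ⟨s, hs⟩ := P.exists_lab hR N hg ⟨hy.1, hn, hy.2.2⟩ (Ne.symm e) hy.2.1.symm
      exact ⟨s, P.lab_inj hR N hg (hf1 s) ⟨hy.1, hn, hy.2.2⟩ (hf2 s) (Ne.symm e) (hf3 s) hy.2.1.symm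
        (hf4 s) hs⟩
    · rintro (rfl | ⟨s, rfl⟩)
      · exact ⟨⟨hg.1, Commute.refl _, hg.2.2⟩, hg.2.1⟩
      · exact ⟨⟨(hf1 s).1, (hf3 s).symm, (hf1 s).2.2⟩, (hf1 s).2.1⟩
  have hnr : g ∉ Set.range f := by rintro ⟨s, hs⟩; exact hf2 s hs.symm
  rw [e, Set.ncard_insert_of_notMem hnr (Set.toFinite _),
    Set.ncard_range_of_injective finj, Nat.card_fin]

theorem exists_disjoint : ∃ Y, IsHex D Y ∧ Y ⊆ Plane D R g ∧ ∀ y ∈ Y, y ∉ R := by
  obtain ⟨N⟩ := P.exists_num hR
  obtain ⟨w, hw, -⟩ := fix_zero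
  obtain ⟨p, hp, hgp, cp, lp⟩ := P.lab_surj hR N hg 0
  obtain ⟨q, hq, hgq, cq, lq⟩ := P.lab_surj hR N hg w
  have hpq : p ≠ q := fun e => by
    have e0 : (0 : Fin 15) = w := P.lab_unique hR N hg hq hgq cq (e ▸ lp) lq
    subst e0
    exact hw ⟨0, rfl⟩
  have pm : p ∈ Plane D R g := ⟨hp.1, cp.symm, hp.2.2⟩
  have qm : q ∈ Plane D R g := ⟨hq.1, cq.symm, hq.2.2⟩
  have gm : g ∈ Plane D R g := ⟨hg.1, Commute.refl g, hg.2.2⟩
  have hf := P.plane_fac hR hg gm pm qm hgp hgq hpq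
  refine ⟨hset D g p q, ⟨g, p, q, hf, rfl⟩, P.hset_sub hR hg gm pm qm, fun y hy hyR => ?_⟩
  obtain ⟨i, rfl⟩ := (N.range y).1 hyR
  obtain ⟨hgY, hpY, hqY⟩ := mem_hset_self hf
  have ng : N.e i ≠ g := fun e => hg.2.1 (e ▸ N.mem i)
  have e1 := P.hset_eq hf hy hgY hpY ng (fun e => hp.2.1 (e ▸ N.mem i)) hgp
  have e2 := P.hset_eq hf hy hgY hqY ng (fun e => hq.2.1 (e ▸ N.mem i)) hgq
  exact hw ⟨i, P.lab_pr hR N hg hp hgp cp lp (pr_ne w i) (by rw [e1, ← e2]; exact lq i)⟩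

theorem two_others_base {u : G} (ha : u ∈ D) {i : G} (hi : i ∈ R) (hui : Commute u i) :
    ∃ h1 h2, h1 ∈ Plane D R g ∧ h2 ∈ Plane D R g ∧ h1 ≠ h2 ∧ h1 ≠ i ∧ h2 ≠ i ∧ Commute u h1 ∧ Commute u h2 := by
  have hsub := P.hex_sub_plane hR hg
  obtain ⟨b, c, hb, hc, hib, hic, hbc, lb, lc⟩ := P.hex_frame hR hi
  by_cases eu : u = i
  · subst eu
    exact ⟨b, c, hsub hb, hsub hc, hbc, hib.symm, hic.symm, P.hex_comm hR hi hb, P.hex_comm hR hi hc⟩
  have lu : u ∈ link D i := ⟨ha, eu, hui.symm⟩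
  obtain ⟨F, _, _, hF, ⟨V⟩⟩ := Vec.exists_vec P.hyp (P.hex_mem hR hi)
  have lg := P.adj_link hR hi hg
  have g1 := (V.orth g lg b lb).1 (hg.2.2 b hb)
  have g2 := (V.orth g lg c lc).1 (hg.2.2 c hc)
  have o5 := (V.orth b lb c lc).1 (P.hex_comm hR hb hc)
  set x := H (V.φ b) (V.φ u)
  set y := H (V.φ c) (V.φ u)
  set z := H (V.φ g) (V.φ u)
  by_cases hxy : x = 0 ∧ y = 0
  · exact ⟨b, c, hsub hb, hsub hc, hbc, hib.symm, hic.symm, ((V.orth b lb u lu).2 hxy.1).symm,
      ((V.orth c lc u lu).2 hxy.2).symm⟩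
  set w1 := y • V.φ b + x • V.φ c with hw1
  have w10 : w1 ≠ 0 := fun e => by
    obtain ⟨e1, e2⟩ := P.frame_indep hR hF hi V hb hc hib hic hbc e
    exact hxy ⟨e2, e1⟩
  obtain ⟨y1, hy1, k, hk0, hk⟩ := V.pt w1 (by
    simp only [hw1, h_add_left, h_smul_left, h_add_right hF, h_smul_right, V.iso b lb, V.iso c lc, o5,
      h_rev_zero hF o5]
    simp) w10
  have hy1R : y1 ∈ R := P.mem_of_span hR hF hi V hb hc hib hic hy1 hbc (α := k * y) (β := k * x)
    (by rw [hk, hw1, smul_add, smul_smul, smul_smul])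
  have cu1 : Commute u y1 := ((V.orth y1 hy1 u lu).2 (by
    rw [hk, h_smul_left, hw1, h_add_left, h_smul_left, h_smul_left,
      show y * x + x * y = 0 by linear_combination (x * y) * two_eq_zero hF, mul_zero])).symm
  -- the second point
  obtain ⟨α, β, hne, hαβ⟩ : ∃ α β : F, (α ≠ 0 ∨ β ≠ 0) ∧ α * x + β * y = z ∧ True := by
    by_cases hx : x = 0
    · exact ⟨1, (z - x) * y⁻¹, Or.inl one_ne_zero, by
        rw [mul_assoc, inv_mul_cancel₀ fun hy => hxy ⟨hx, hy⟩]; ring, trivial⟩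
    · exact ⟨(z - y) * x⁻¹, 1, Or.inr one_ne_zero, by
        rw [mul_assoc, inv_mul_cancel₀ hx]; ring, trivial⟩
  set w2 := α • V.φ b + β • V.φ c + V.φ g with hw2
  have w20 : w2 ≠ 0 := fun e => hg.2.1 (P.mem_of_span hR hF hi V hb hc hib hic lg hbc (α := α) (β := β)
    (by rw [← zero_add (V.φ g), ← vadd_self hF (α • V.φ b + β • V.φ c), add_assoc,
      show α • V.φ b + β • V.φ c + V.φ g = 0 from e, add_zero]))
  obtain ⟨y2, hy2, k', hk0', hk'⟩ := V.pt w2 (by
    simp only [hw2, h_add_left, h_smul_left, h_add_right hF, h_smul_right, V.iso b lb, V.iso c lc,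
      V.iso g lg, o5, h_rev_zero hF o5, g1, g2, h_rev_zero hF g1, h_rev_zero hF g2]
    simp) w20
  have y2b : Commute y2 b := (V.orth y2 hy2 b lb).2 (by
    rw [hk', h_smul_left, hw2, h_add_left, h_add_left, h_smul_left, h_smul_left, V.iso b lb,
      h_rev_zero hF o5, g1]; simp)
  have y2c : Commute y2 c := (V.orth y2 hy2 c lc).2 (by
    rw [hk', h_smul_left, hw2, h_add_left, h_add_left, h_smul_left, h_smul_left, V.iso c lc, o5, g2]
    simp)
  have y2g : Commute y2 g := (V.orth y2 hy2 g lg).2 (by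
    rw [hk', h_smul_left, hw2, h_add_left, h_add_left, h_smul_left, h_smul_left, V.iso g lg,
      h_rev_zero hF g1, h_rev_zero hF g2]; simp)
  have hy2m : y2 ∈ Plane D R g := ⟨hy2.1, y2g, fun r hr => by
    have hr' : r ∈ hset D i b c := by rw [(P.hex_eq hR hi hb hc hib hic hbc).2]; exact hr
    exact hr'.2.2.2.2 y2 hy2.1 hy2.2.2.symm y2b y2c⟩
  have cu2 : Commute u y2 := ((V.orth y2 hy2 u lu).2 (by
    rw [hk', h_smul_left, hw2, h_add_left, h_add_left, h_smul_left, h_smul_left,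
      show α * x + β * y + z = 0 by linear_combination hαβ.1 + z * two_eq_zero hF, mul_zero])).symm
  refine ⟨y1, y2, hsub hy1R, hy2m, fun e => hg.2.1 ?_, hy1.2.1, hy2.2.1, cu1, cu2⟩
  have e' : k • w1 = k' • w2 := by rw [← hk, ← hk', e]
  refine P.mem_of_span hR hF hi V hb hc hib hic lg hbc (α := k'⁻¹ * k * y + α) (β := k'⁻¹ * k * x + β) ?_
  have e2 := congrArg (fun v => k'⁻¹ • v + (α • V.φ b + β • V.φ c)) e'
  simp only [inv_smul_smul₀ hk0'] at e2
  rw [hw1, hw2, smul_add, smul_add, smul_smul, smul_smul, smul_smul, smul_smul] at e2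
  rw [add_smul, add_smul]
  calc V.φ g = α • V.φ b + β • V.φ c + V.φ g + (α • V.φ b + β • V.φ c) := by
        rw [add_right_comm, vadd_self hF, zero_add]
    _ = _ := by rw [← e2]; module

theorem two_others {a u : G} (ha : a ∈ Plane D R g) (hu : u ∈ D) (hua : Commute u a) :
    ∃ h1 h2, h1 ∈ Plane D R g ∧ h2 ∈ Plane D R g ∧ h1 ≠ h2 ∧ h1 ≠ a ∧ h2 ≠ a ∧ Commute u h1 ∧ Commute u h2 := by
  by_cases haR : a ∈ R
  · exact P.two_others_base hR hg hu haR hua
  have h6 := P.hex_ncard hR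
  obtain ⟨p, q, hp, hq, hpq⟩ := (Set.one_lt_ncard_iff (s := R) (Set.toFinite _)).1 (by omega)
  have pm := P.hex_sub_plane hR hg hp
  have qm := P.hex_sub_plane hR hg hq
  have hf := P.plane_fac hR hg ha pm qm (fun e => haR (e ▸ hp)) (fun e => haR (e ▸ hq)) hpq
  have hR' : IsHex D (hset D a p q) := ⟨a, p, q, hf, rfl⟩
  obtain ⟨g', hg', hn⟩ : ∃ g' ∈ R, g' ∉ hset D a p q := by
    by_contra h
    push Not at h
    have e := Set.eq_of_subset_of_ncard_le h (by rw [P.hset_ncard hf, h6]) (Set.toFinite _)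
    exact haR (e ▸ (mem_hset_self hf).1)
  obtain ⟨hA, he⟩ := P.rebase hR hg hR' (P.hset_sub hR hg ha pm qm) (P.hex_sub_plane hR hg hg') hn
  rw [← he]
  exact P.two_others_base hR' hA hu (mem_hset_self hf).1 hua

theorem no_three_disjoint {Y Z : Set G} (hY : IsHex D Y) (hZ : IsHex D Z) (sY : Y ⊆ Plane D R g)
    (sZ : Z ⊆ Plane D R g) (dY : ∀ y ∈ Y, y ∉ R) (dZ : ∀ z ∈ Z, z ∉ R ∧ z ∉ Y) : False := by
  classical
  haveI := Fintype.ofFinite G
  set E := Subgroup.closure (Plane D R g)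
  letI : CommGroup E := Subgroup.closureCommGroupOfComm fun y hy z hz => P.plane_comm hR hg hy hz
  let f : G → E := fun y => if hy : y ∈ Plane D R g then ⟨y, Subgroup.subset_closure hy⟩ else 1
  have fv : ∀ {y}, y ∈ Plane D R g → (f y : G) = y := fun hy => by simp [f, hy]
  have sq : ∀ {y}, y ∈ Plane D R g → f y * f y = 1 := fun {y} hy => Subtype.ext (by
    rw [Subgroup.coe_mul, fv hy, P.data.mul_self hy.1, Subgroup.coe_one])
  have hexprod : ∀ {X : Set G}, IsHex D X → X ⊆ Plane D R g → ∏ y ∈ X.toFinset, f y = 1 := by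
    intro X hX hs
    obtain ⟨a, b, c, hf, rfl⟩ := hX
    obtain ⟨s, hs1, -, hsp, hsm⟩ := P.hset_list hf
    rw [show (hset D a b c).toFinset = s.toFinset from Finset.ext fun y => by simp [hsm y],
      List.prod_toFinset _ hs1.nodup]
    refine Subtype.ext ?_
    show E.subtype (List.map f s).prod = 1
    have e : List.map (⇑E.subtype ∘ f) s = s :=
      (List.map_congr_left (g := id) fun y hy => fv (hs ((hsm y).1 hy))).trans s.map_id
    rw [map_list_prod, List.map_map, e, hsp]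
  set S := (Plane D R g \ R).toFinset
  have hS : S.card = 16 := by rw [← Set.ncard_eq_toFinset_card']; exact P.plane_ncard hR hg
  have hRs := P.hex_sub_plane hR hg
  have h6 : R.ncard = 6 := P.hex_ncard hR
  obtain ⟨a, b, ha, hb, hab⟩ := (Set.one_lt_ncard_iff (s := R) (Set.toFinite _)).1 (by omega)
  have am := hRs ha
  have bm := hRs hb
  let cell : G → Set G := fun h => hset D a b h
  have fib : ∀ K ∈ S.image cell, (S.filter fun h => cell h = K).card = 4 ∧
      ∏ h ∈ S.filter (fun h => cell h = K), f h = f a * f b := by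
    intro K hK
    obtain ⟨h₀, hh₀, rfl⟩ := Finset.mem_image.1 hK
    simp only [S, Set.mem_toFinset] at hh₀
    have hah : a ≠ h₀ := fun e => hh₀.2 (e ▸ ha)
    have hbh : b ≠ h₀ := fun e => hh₀.2 (e ▸ hb)
    have hf := P.plane_fac hR hg am bm hh₀.1 hab hah hbh
    obtain ⟨am', bm', hm'⟩ := mem_hset_self hf
    have hsub := P.hset_sub hR hg am bm hh₀.1
    have e : S.filter (fun h => cell h = cell h₀) = ((cell h₀).toFinset.erase a).erase b := by
      ext y
      simp only [Finset.mem_filter, S, Finset.mem_erase, Set.mem_toFinset, Set.mem_sdiff]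
      constructor
      · rintro ⟨⟨hy, hyR⟩, e⟩
        refine ⟨fun e' => hyR (e' ▸ hb), fun e' => hyR (e' ▸ ha), ?_⟩
        rw [← e]
        exact (mem_hset_self (P.plane_fac hR hg am bm hy hab (fun e' => hyR (e' ▸ ha))
          (fun e' => hyR (e' ▸ hb)))).2.2
      · rintro ⟨hyb, hya, hy⟩
        refine ⟨⟨hsub hy, fun hyR => ?_⟩, P.hset_eq hf am' bm' hy hab hya.symm hyb.symm⟩
        have e1 := P.hset_eq hf am' bm' hy hab hya.symm hyb.symm
        rw [(P.hex_eq hR ha hb hyR hab hya.symm hyb.symm).2] at e1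
        exact hh₀.2 (e1 ▸ hm')
    have ha' : a ∈ (cell h₀).toFinset := Set.mem_toFinset.2 am'
    have hb' : b ∈ (cell h₀).toFinset.erase a := Finset.mem_erase.2 ⟨hab.symm, Set.mem_toFinset.2 bm'⟩
    refine ⟨?_, ?_⟩
    · rw [e, Finset.card_erase_of_mem hb', Finset.card_erase_of_mem ha', ← Set.ncard_eq_toFinset_card',
        P.hset_ncard hf]
    · have hp := hexprod ⟨a, b, h₀, hf, rfl⟩ hsub
      rw [← Finset.mul_prod_erase _ _ ha', ← Finset.mul_prod_erase _ _ hb', ← e, ← mul_assoc] at hp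
      rw [eq_inv_of_mul_eq_one_right hp, mul_inv_rev, inv_eq_of_mul_eq_one_right (sq am),
        inv_eq_of_mul_eq_one_right (sq bm), mul_comm]
  have hn : (S.image cell).card = 4 := by
    have := Finset.card_eq_sum_card_image cell S
    rw [Finset.sum_congr rfl fun K hK => (fib K hK).1, Finset.sum_const, smul_eq_mul, hS] at this
    omega
  have hSprod : ∏ h ∈ S, f h = 1 := by
    rw [← Finset.prod_fiberwise_of_maps_to (fun h hh => Finset.mem_image_of_mem cell hh),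
      Finset.prod_congr rfl fun K hK => (fib K hK).2, Finset.prod_const, hn,
      show (4 : ℕ) = 2 * 2 from rfl, pow_mul, pow_two (f a * f b), mul_mul_mul_comm, sq am, sq bm,
      one_mul, one_pow]
  set T := (S \ Y.toFinset) \ Z.toFinset with hT
  have hYS : Y.toFinset ⊆ S := fun y hy => by
    simp only [Set.mem_toFinset, S] at hy ⊢
    exact ⟨sY hy, dY y hy⟩
  have hZS : Z.toFinset ⊆ S \ Y.toFinset := fun z hz => by
    simp only [Set.mem_toFinset, S, Finset.mem_sdiff] at hz ⊢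
    exact ⟨⟨sZ hz, (dZ z hz).1⟩, (dZ z hz).2⟩
  have hTc : T.card = 4 := by
    rw [hT, Finset.card_sdiff_of_subset hZS, Finset.card_sdiff_of_subset hYS, hS,
      ← Set.ncard_eq_toFinset_card', ← Set.ncard_eq_toFinset_card', P.hex_ncard hY, P.hex_ncard hZ]
  have hTp : ∏ h ∈ T, f h = 1 := by
    have h2 := hSprod
    rw [← Finset.prod_sdiff hYS, hexprod hY sY, mul_one, ← Finset.prod_sdiff hZS, hexprod hZ sZ,
      mul_one] at h2
    exact h2
  have hTm : ∀ y ∈ T, y ∈ Plane D R g := fun y hy => by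
    simp only [hT, Finset.mem_sdiff, S, Set.mem_toFinset] at hy
    exact hy.1.1.1
  refine P.hyp.indeps hg.1 4 (by norm_num) (by norm_num) T.toList T.nodup_toList
    (by rw [Finset.length_toList, hTc]) (fun y hy => (hTm y (Finset.mem_toList.1 hy)).1)
    (fun y hy z hz => P.plane_comm hR hg (hTm y (Finset.mem_toList.1 hy)) (hTm z (Finset.mem_toList.1 hz))) ?_
  have e2 : E.subtype (∏ h ∈ T, f h) = 1 := by rw [hTp, map_one]
  have e : List.map (⇑E.subtype ∘ f) T.toList = T.toList :=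
    (List.map_congr_left (g := id) fun y hy => fv (hTm y (Finset.mem_toList.1 hy))).trans T.toList.map_id
  rw [← Finset.prod_map_toList, map_list_prod, List.map_map, e] at e2
  exact e2

/-- Some transposition commutes with no member of the plane. -/
theorem exists_none : ∃ c ∈ D, ∀ y ∈ Plane D R g, ¬ Commute c y := by
  classical
  have hD := P.data
  obtain ⟨Y, hY, sY, dY⟩ := P.exists_disjoint hR hg
  obtain ⟨g₁, hg₁, hn⟩ : ∃ g₁ ∈ Plane D R g \ R, g₁ ∉ Y :=
    Set.exists_mem_notMem_of_ncard_lt_ncard (by rw [P.plane_ncard hR hg, P.hex_ncard hY]; norm_num)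
      (Set.toFinite _)
  obtain ⟨hA, heR⟩ := P.rebase hR hg hR (P.hex_sub_plane hR hg) hg₁.1 hg₁.2
  obtain ⟨hB, heY⟩ := P.rebase hR hg hY sY hg₁.1 hn
  obtain ⟨h, hh, ngh⟩ := P.exists_adj_nc hR hA
  obtain ⟨c2, hc2, ngc2⟩ := P.exists_adj_nc hY hB
  have only : ∀ {X : Set G} {k : G}, IsHex D X → Adj D X g₁ → Plane D X g₁ = Plane D R g → Adj D X k →
      ¬ Commute g₁ k → ∀ y ∈ Plane D R g, Commute k y → y ∈ X := by
    intro X k hX hXA e hk nk y hy hky
    by_contra hyX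
    rw [← e] at hy
    exact nk (P.adj_trans hX hXA ⟨hy.1, hyX, hy.2.2⟩ hk hy.2.1.symm hky.symm)
  have kA : Adj D R (cj h g₁) := by
    refine ⟨hD.inv' h _ hA.1, fun hm => hA.2.1 ?_, fun r hr => ?_⟩
    · rw [← hD.cj_cj hh.1 g₁, (cj_eq_self_iff h _).2 (hh.2.2 _ hm)]
      exact hm
    · rw [← (cj_eq_self_iff h r).2 (hh.2.2 r hr)]
      exact (cj_commute_iff h g₁ r).2 (hA.2.2 r hr)
  have nk : ¬ Commute g₁ (cj h g₁) := by
    rw [hD.cj_comm hh.1 hA.1 fun e => ngh e.symm]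
    exact hD.not_commute_third hA.1 hh.1 ngh
  obtain ⟨c1, hc1, ng1, n12⟩ : ∃ c1, Adj D R c1 ∧ ¬ Commute g₁ c1 ∧ ¬ Commute c2 c1 := by
    by_cases e : Commute c2 h
    · refine ⟨_, kA, nk, fun e' => ngc2 ?_⟩
      have := (cj_commute_iff h c2 (cj h g₁)).2 e'
      rw [hD.cj_cj hh.1, (cj_eq_self_iff h c2).2 e.symm] at this
      exact this.symm
    · exact ⟨h, hh, ngh, e⟩
  set c := cj c1 c2
  refine ⟨c, hD.inv' c1 c2 hc2.1, fun y hy hcy => ?_⟩
  have avoid : ∀ x ∈ Plane D R g, Commute c x → x ∉ R ∧ x ∉ Y := by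
    intro x hx hcx
    constructor
    · intro hxR
      refine dY x (only hY hB heY hc2 ngc2 x hx ?_) hxR
      have h1 := (cj_commute_iff c1 c x).2 hcx
      rwa [hD.cj_cj hc1.1, (cj_eq_self_iff c1 x).2 (hc1.2.2 x hxR)] at h1
    · intro hxY
      refine dY x hxY (only hR hA heR hc1 ng1 x hx ?_)
      rw [show c = cj c2 c1 from hD.cj_comm hc1.1 hc2.1 fun e => n12 e.symm] at hcx
      have h1 := (cj_commute_iff c2 _ x).2 hcx
      rwa [hD.cj_cj hc2.1, (cj_eq_self_iff c2 x).2 (hc2.2.2 x hxY)] at h1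
  obtain ⟨h1, h2, m1, m2, h12, h1y, h2y, u1, u2⟩ := P.two_others hR hg hy (hD.inv' c1 c2 hc2.1) hcy
  have hf := P.plane_fac hR hg hy m1 m2 h1y.symm h2y.symm h12
  have sub := P.hset_sub hR hg hy m1 m2
  exact P.no_three_disjoint hR hg hY ⟨y, h1, h2, hf, rfl⟩ sY sub dY fun z hz =>
    avoid z (sub hz) (hz.2.2.2.2 c (hD.inv' c1 c2 hc2.1) hcy u1 u2)

end M22Prim

end Cfsg.Agent.M22Trans.W
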