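import Cfsg.Agent.M22Trans.W.Order
import Cfsg.Agent.M22Trans.W.Hexads
import Cfsg.Agent.M22Trans.W.Planes
import Cfsg.Agent.M22Trans.W.Coord

/-!
Among the transpositions commuting with two non-commuting ones in a group of type M(22) there are six
whose non-commuting graph is a path.
-/

set_option autoImplicit false
set_option linter.unusedSectionVars false

namespace Cfsg.Agent.M22Trans.W

open Cfsg.Agent.ThreeTransp45 Cfsg.Agent.SporB Cfsg.Agent.TTLink Cfsg.Agent.TTLink.UnitarySix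
  Cfsg.Agent.TTClass.UnitF4

variable {G : Type*} [Group G] [Finite G] {D : Set G}

theorem fac_three {x y z : G} (hx : x ∈ D) (hy : y ∈ D) (hz : z ∈ D) (nxy : x ≠ y) (nxz : x ≠ z)
    (nyz : y ≠ z) (cxy : Commute x y) (cxz : Commute x z) (cyz : Commute y z) : Fac D [x, y, z] := by
  refine ⟨by simp [nxy, nxz, nyz], by simp [hx, hy, hz], ?_⟩
  simp [cxy, cxz, cyz, cxy.symm, cxz.symm, cyz.symm]

namespace ChainExist

variable {F : Type} [Field F] [Fintype F] (hF : Fintype.card F = 4)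
include hF

/-- Pairing with a family of vectors. -/
abbrev pmap {n : ℕ} (v : Fin n → (Fin 6 → F)) : (Fin 6 → F) →ₗ[F] (Fin n → F) where
  toFun := fun u i => H u (v i)
  map_add' := fun a b => funext fun i => h_add_left a b _
  map_smul' := fun c a => funext fun i => h_smul_left c a _

theorem pmap_ker {n : ℕ} {v : Fin n → (Fin 6 → F)} (hli : LinearIndependent F v) :
    Module.finrank F (LinearMap.ker (pmap v)) + n = 6 := perp_map_surj hF hli

/-- A vector orthogonal to the given independent ones outside a given smaller span. -/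
theorem exists_out {n : ℕ} {v : Fin n → (Fin 6 → F)} (hli : LinearIndependent F v) {m : ℕ}
    (u : Fin m → (Fin 6 → F)) (hm : m + n < 6) :
    ∃ w : Fin 6 → F, (∀ k, H w (v k) = 0) ∧ w ∉ Submodule.span F (Set.range u) := by
  classical
  have hk := pmap_ker hF hli
  set K := LinearMap.ker (pmap v)
  by_contra hc
  push Not at hc
  have hle : K ≤ Submodule.span F (Set.range u) := fun w hw =>
    hc w fun k => congrFun (LinearMap.mem_ker.1 hw) k
  have h1 := Submodule.finrank_mono hle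
  have h2 := finrank_range_le_card (R := F) u
  rw [Fintype.card_fin, Set.finrank] at h2
  omega

variable {p q g : Fin 6 → F} (hpq : H p q ≠ 0) (hpp : H p p = 0) (hqq : H q q = 0)
  (hg0 : g ≠ 0) (hgp : H g p = 0) (hgq : H g q = 0)
include hpq hpp hqq hg0 hgp hgq

theorem indep_three : LinearIndependent F ![p, q, g] := by
  rw [Fintype.linearIndependent_iff]
  intro a ha
  simp only [Fin.sum_univ_three, Matrix.cons_val_zero, Matrix.cons_val_one, Matrix.cons_val] at ha
  have e1 := congrArg (fun v => H v p) ha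
  have e2 := congrArg (fun v => H v q) ha
  simp only [h_add_left, h_smul_left, h_zero_left, hpp, hqq, hgp, hgq, mul_zero, add_zero, zero_add] at e1 e2
  have a1 : a 1 = 0 := (mul_eq_zero.1 e1).resolve_right fun e => hpq (h_rev_zero hF e)
  have a0 : a 0 = 0 := (mul_eq_zero.1 e2).resolve_right hpq
  rw [a0, a1, zero_smul, zero_smul, zero_add, zero_add] at ha
  intro j; fin_cases j
  exacts [a0, a1, (smul_eq_zero.1 ha).resolve_right hg0]

/-- A further isotropic point on a line through `g`. -/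
theorem exists_line (hgg : H g g = 0) :
    ∃ w : Fin 6 → F, H w p = 0 ∧ H w q = 0 ∧ H w g = 0 ∧ H w w = 0 ∧ ∀ c : F, w ≠ c • g := by
  have hli := indep_three hF hpq hpp hqq hg0 hgp hgq
  obtain ⟨u, hu, hu'⟩ := exists_out hF hli ![g] (by norm_num)
  obtain ⟨v, hv, hv'⟩ := exists_out hF hli ![g, u] (by norm_num)
  have u1 : H u p = 0 := hu 0
  have u2 : H u q = 0 := hu 1
  have u3 : H u g = 0 := hu 2
  have v1 : H v p = 0 := hv 0
  have v2 : H v q = 0 := hv 1
  have v3 : H v g = 0 := hv 2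
  simp only [Matrix.range_cons, Matrix.range_empty, Set.union_empty] at hu' hv'
  rcases h_self hF u with huu | huu
  · exact ⟨u, u1, u2, u3, huu, fun c e => hu' (Submodule.mem_span_singleton.2 ⟨c, e.symm⟩)⟩
  set v' := v + H v u • u with hvdef
  have w1 : H v' p = 0 := by rw [hvdef, h_add_left, h_smul_left, u1, v1]; simp
  have w2 : H v' q = 0 := by rw [hvdef, h_add_left, h_smul_left, u2, v2]; simp
  have w3 : H v' g = 0 := by rw [hvdef, h_add_left, h_smul_left, u3, v3]; simp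
  have w4 : H v' u = 0 := by
    rw [hvdef, h_add_left, h_smul_left, huu, mul_one]; exact add_self'' hF _
  clear_value v'
  rcases h_self hF v' with hvv | hvv
  · refine ⟨v', w1, w2, w3, hvv, fun c e => hv' ?_⟩
    refine Submodule.mem_span.2 fun S hS => ?_
    have hgS : g ∈ S := hS (by simp)
    have huS : u ∈ S := hS (by simp)
    have : v = c • g - H v u • u := by rw [← e, hvdef]; abel
    rw [this]; exact S.sub_mem (S.smul_mem _ hgS) (S.smul_mem _ huS)
  · refine ⟨u + v', by rw [h_add_left, u1, w1, add_zero], by rw [h_add_left, u2, w2, add_zero],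
      by rw [h_add_left, u3, w3, add_zero], ?_, fun c e => hv' ?_⟩
    · rw [h_add_left, h_add_right hF, h_add_right hF, huu, hvv, w4, h_rev_zero hF w4]
      simpa using add_self'' hF (1 : F)
    · refine Submodule.mem_span.2 fun S hS => ?_
      have hgS : g ∈ S := hS (by simp)
      have huS : u ∈ S := hS (by simp)
      have : v = c • g - u - H v u • u := by rw [← e, hvdef]; abel
      rw [this]; exact S.sub_mem (S.sub_mem (S.smul_mem _ hgS) huS) (S.smul_mem _ huS)

/-- An isotropic point of the perpendicular space meeting `e` non-trivially. -/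
theorem exists_dual {e : Fin 6 → F} (hee : H e e = 0) (hep : H e p = 0) (heq : H e q = 0)
    (hge : H g e = 0) (hne : ∀ c : F, e ≠ c • g) :
    ∃ w : Fin 6 → F, H w p = 0 ∧ H w q = 0 ∧ H w g = 0 ∧ H w e = 1 ∧ H w w = 0 := by
  have hli3 := indep_three hF hpq hpp hqq hg0 hgp hgq
  have hli4 : LinearIndependent F ![p, q, g, e] := by
    rw [Fintype.linearIndependent_iff]
    intro a ha
    simp only [Fin.sum_univ_four, Matrix.cons_val_zero, Matrix.cons_val_one, Matrix.cons_val] at ha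
    have e1 := congrArg (fun v => H v p) ha
    have e2 := congrArg (fun v => H v q) ha
    simp only [h_add_left, h_smul_left, h_zero_left, hpp, hqq, hgp, hgq, hep, heq, mul_zero, add_zero,
      zero_add] at e1 e2
    have a1 : a 1 = 0 := (mul_eq_zero.1 e1).resolve_right fun h => hpq (h_rev_zero hF h)
    have a0 : a 0 = 0 := (mul_eq_zero.1 e2).resolve_right hpq
    rw [a0, a1, zero_smul, zero_smul, zero_add, zero_add] at ha
    have a3 : a 3 = 0 := by
      by_contra h3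
      refine hne ((a 3)⁻¹ * a 2) ?_
      have := congrArg (fun v => (a 3)⁻¹ • (v + a 2 • g)) ha
      simp only [zero_add, smul_add, smul_smul, inv_mul_cancel₀ h3, one_smul] at this
      rw [add_comm ((((a 3)⁻¹ * a 2)) • g) e, add_assoc, vadd_self hF, add_zero] at this
      exact this
    rw [a3, zero_smul, add_zero] at ha
    intro j; fin_cases j
    exacts [a0, a1, (smul_eq_zero.1 ha).resolve_right hg0, a3]
  obtain ⟨v, hv, hv'⟩ : ∃ v : Fin 6 → F, (∀ k, H v (![p, q, g] k) = 0) ∧ H v e ≠ 0 := by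
    by_contra hc
    push Not at hc
    have k3 := pmap_ker hF hli3
    have k4 := pmap_ker hF hli4
    have hle : LinearMap.ker (pmap ![p, q, g]) ≤ LinearMap.ker (pmap ![p, q, g, e]) := fun u hu => by
      have h' := fun k => congrFun (LinearMap.mem_ker.1 hu) k
      refine LinearMap.mem_ker.2 (funext fun k => ?_)
      fin_cases k
      exacts [h' 0, h' 1, h' 2, hc u h']
    have := Submodule.finrank_mono hle
    omega
  set s := (H v e)⁻¹ • v with hs
  have s1 : H s p = 0 := by rw [hs, h_smul_left, show H v p = 0 from hv 0, mul_zero]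
  have s2 : H s q = 0 := by rw [hs, h_smul_left, show H v q = 0 from hv 1, mul_zero]
  have s3 : H s g = 0 := by rw [hs, h_smul_left, show H v g = 0 from hv 2, mul_zero]
  have s4 : H s e = 1 := by rw [hs, h_smul_left, inv_mul_cancel₀ hv']
  have s5 : H e s = 1 := by rw [h_symm hF s e, s4, one_pow]
  clear_value s
  obtain ⟨o, ho⟩ := exists_omega hF
  obtain ⟨μ, hμ⟩ : ∃ μ : F, μ + μ ^ 2 = H s s := by
    rcases h_self hF s with h | h
    · exact ⟨0, by rw [h]; simp⟩
    · exact ⟨o, by rw [h]; linear_combination ho - two_eq_zero hF⟩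
  refine ⟨s + μ • e, ?_, ?_, ?_, ?_, ?_⟩
  · rw [h_add_left, h_smul_left, s1, hep]; simp
  · rw [h_add_left, h_smul_left, s2, heq]; simp
  · rw [h_add_left, h_smul_left, s3, h_rev_zero hF hge]; simp
  · rw [h_add_left, h_smul_left, s4, hee]; simp
  · rw [h_add_left, h_smul_left, h_add_right hF, h_add_right hF, h_smul_right, h_smul_right, s4, s5, hee]
    linear_combination -hμ + (μ + μ ^ 2) * two_eq_zero hF

/-- Three lines through `g` cover its isotropic perpendicular points. -/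
theorem three_lines (hgg : H g g = 0) : ∃ r : Fin 3 → (Fin 6 → F), ∀ u : Fin 6 → F,
    H u p = 0 → H u q = 0 → H u g = 0 → H u u = 0 →
      ∃ (j : Fin 3) (α β : F), u = α • g + β • r j := by
  obtain ⟨y, y1, y2, y3, y4, y5⟩ := exists_line hF hpq hpp hqq hg0 hgp hgq hgg
  obtain ⟨w, w1, w2, w3, w4, w5⟩ := exists_dual hF hpq hpp hqq hg0 hgp hgq y4 y1 y2 (h_rev_zero hF y3) y5
  refine ⟨![y, w, y + w], fun u u1 u2 u3 u4 => ?_⟩
  have yw : H y w = 1 := by rw [h_symm hF w y, w4, one_pow]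
  set β := H u w
  set γ := H u y
  set t := u + β • y + γ • w with ht
  have t1 : H t p = 0 := by simp [ht, h_add_left, h_smul_left, u1, y1, w1]
  have t2 : H t q = 0 := by simp [ht, h_add_left, h_smul_left, u2, y2, w2]
  have t3 : H t g = 0 := by simp [ht, h_add_left, h_smul_left, u3, y3, w3]
  have t4 : H t y = 0 := by
    simp [ht, h_add_left, h_smul_left, y4, w4, γ]; exact add_self'' hF _
  have t5 : H t w = 0 := by
    simp [ht, h_add_left, h_smul_left, w5, yw, β]; exact add_self'' hF _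
  have hli5 : LinearIndependent F ![p, q, g, y, w] := by
    rw [Fintype.linearIndependent_iff]
    intro a ha
    simp only [Fin.sum_univ_five, Matrix.cons_val_zero, Matrix.cons_val_one, Matrix.cons_val] at ha
    have e1 := congrArg (fun v => H v p) ha
    have e2 := congrArg (fun v => H v q) ha
    have e4 := congrArg (fun v => H v y) ha
    have e5 := congrArg (fun v => H v w) ha
    simp only [h_add_left, h_smul_left, h_zero_left, hpp, hqq, hgp, hgq, y1, y2, w1, w2, h_rev_zero hF y3,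
      h_rev_zero hF w3, h_rev_zero hF y1, h_rev_zero hF y2, h_rev_zero hF w1, h_rev_zero hF w2, y4, w4,
      w5, yw, mul_zero, mul_one, add_zero, zero_add] at e1 e2 e4 e5
    have a1 : a 1 = 0 := (mul_eq_zero.1 e1).resolve_right fun h => hpq (h_rev_zero hF h)
    have a0 : a 0 = 0 := (mul_eq_zero.1 e2).resolve_right hpq
    rw [a0, a1, e4, e5, zero_smul, zero_smul, zero_smul, zero_smul, zero_add, zero_add, add_zero,
      add_zero] at ha
    intro j; fin_cases j
    exacts [a0, a1, (smul_eq_zero.1 ha).resolve_right hg0, e5, e4]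
  obtain ⟨α, hα⟩ : ∃ α : F, t = α • g := by
    have hk := pmap_ker hF hli5
    set K := LinearMap.ker (pmap ![p, q, g, y, w])
    have hgK : g ∈ K := LinearMap.mem_ker.2 (funext fun k => by
      fin_cases k
      exacts [hgp, hgq, hgg, h_rev_zero hF y3, h_rev_zero hF w3])
    have htK : t ∈ K := LinearMap.mem_ker.2 (funext fun k => by
      fin_cases k
      exacts [t1, t2, t3, t4, t5])
    have hle : Submodule.span F {g} ≤ K := by
      rw [Submodule.span_singleton_le_iff_mem]; exact hgK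
    have := Submodule.eq_of_le_of_finrank_le hle (by rw [finrank_span_singleton hg0]; omega)
    rw [← this, Submodule.mem_span_singleton] at htK
    exact htK.imp fun c e => e.symm
  have hu : u = α • g + β • y + γ • w := by
    rw [← hα, ht]
    calc u = u + (β • y + β • y) + (γ • w + γ • w) := by rw [vadd_self hF, vadd_self hF]; simp
      _ = _ := by abel
  have hbg : β * γ * (β + γ) = 0 := by
    rw [hu] at u4
    simp only [h_add_left, h_smul_left, h_add_right hF, h_smul_right, hgg, y3, w3, h_rev_zero hF y3,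
      h_rev_zero hF w3, y4, w4, w5, yw, mul_zero, mul_one, add_zero, zero_add] at u4
    linear_combination u4
  rcases mul_eq_zero.1 hbg with h | h
  · rcases mul_eq_zero.1 h with h | h
    · exact ⟨1, α, γ, by rw [hu, h]; simp⟩
    · exact ⟨0, α, β, by rw [hu, h]; simp⟩
  · refine ⟨2, α, β, ?_⟩
    have : γ = β := by linear_combination h - β * two_eq_zero hF
    rw [hu, this, add_assoc]; simp [smul_add]

end ChainExist

/-- The common neighbours of `a` and `b`. -/
def common (D : Set G) (a b : G) : Set G := {y | y ∈ D ∧ Commute a y ∧ Commute b y}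

theorem hset_common {a b x y z u : G} (ha : a ∈ D) (hb : b ∈ D) (hx : x ∈ common D a b)
    (hy : y ∈ common D a b) (hz : z ∈ common D a b) (hu : u ∈ hset D x y z) : u ∈ common D a b :=
  ⟨hu.1, hu.2.2.2.2 a ha hx.2.1 hy.2.1 hz.2.1, hu.2.2.2.2 b hb hx.2.2 hy.2.2 hz.2.2⟩

namespace ChainExist

variable {F : Type} [Field F] [Fintype F]

/-- The point of the line through `b` and `c` orthogonal to `z`. -/
theorem exists_meet (P : M22Prim D) (hF : Fintype.card F = 4) {R : Set G} (hR : IsHex D R) {i : G}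
    (hi : i ∈ R) (V : Vec D (F := F) i) {b c : G} (hb : b ∈ R) (hc : c ∈ R) (hib : i ≠ b) (hic : i ≠ c)
    (hbc : b ≠ c) {z : G} (hz : z ∈ link D i) (hzb : ¬ Commute z b) :
    ∃ d ∈ R, d ∈ link D i ∧ d ≠ b ∧ Commute d z ∧
      ∃ α β : F, β ≠ 0 ∧ V.φ d = α • V.φ b + β • V.φ c := by
  have lb : b ∈ link D i := ⟨P.hex_mem hR hb, hib.symm, P.hex_comm hR hi hb⟩
  have lc : c ∈ link D i := ⟨P.hex_mem hR hc, hic.symm, P.hex_comm hR hi hc⟩
  have hbz : H (V.φ b) (V.φ z) ≠ 0 := fun e => hzb ((V.orth b lb z hz).2 e).symm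
  have hbc' : H (V.φ b) (V.φ c) = 0 := (V.orth b lb c lc).1 (P.hex_comm hR hb hc)
  set w := H (V.φ c) (V.φ z) • V.φ b + H (V.φ b) (V.φ z) • V.φ c with hw
  have ww : H w w = 0 := by
    simp [hw, h_add_left, h_smul_left, h_add_right hF, h_smul_right, V.iso b lb, V.iso c lc, hbc',
      h_rev_zero hF hbc']
  have wz : H w (V.φ z) = 0 := by
    rw [hw, h_add_left, h_smul_left, h_smul_left, mul_comm]; exact add_self'' hF _
  have w0 : w ≠ 0 := fun e => hbz (P.frame_indep hR hF hi V hb hc hib hic hbc e).2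
  obtain ⟨d, hd, k, hk, ek⟩ := V.pt w ww w0
  have ed : V.φ d = (k * H (V.φ c) (V.φ z)) • V.φ b + (k * H (V.φ b) (V.φ z)) • V.φ c := by
    rw [ek, hw, smul_add, smul_smul, smul_smul]
  have hdz : Commute d z := (V.orth d hd z hz).2 (by rw [ek, h_smul_left, wz, mul_zero])
  refine ⟨d, P.mem_of_span hR hF hi V hb hc hib hic hd hbc ed, hd, fun e => hzb (e ▸ hdz).symm, hdz,
    _, _, mul_ne_zero hk hbz, ed⟩

/-- The second member of a hexad commuting with `z`. -/
theorem partner_exists (P : M22Prim D) {R : Set G} (hR : IsHex D R) {i q z : G} (hi : i ∈ R) (hq : q ∈ R)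
    (hz : z ∈ D) (hqz : Commute q z) (hiz : ¬ Commute i z) :
    ∃ r ∈ R, r ≠ q ∧ r ≠ i ∧ Commute r z := by
  have hqi : q ≠ i := fun e => hiz (e ▸ hqz)
  have hlz : z ∈ link D q := ⟨hz, fun e => hiz (e ▸ P.hex_comm hR hi hq), hqz⟩
  obtain ⟨F, _, _, hF, ⟨V⟩⟩ := Vec.exists_vec P.hyp (P.hex_mem hR hq)
  obtain ⟨s, hs, hs'⟩ : ∃ s ∈ R, s ∉ ({q, i} : Set G) :=
    Set.exists_mem_notMem_of_ncard_lt_ncard (by
      have := Set.ncard_insert_le q ({i} : Set G)
      rw [Set.ncard_singleton] at this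
      rw [P.hex_ncard hR]; omega) (Set.toFinite _)
  simp only [Set.mem_insert_iff, Set.mem_singleton_iff, not_or] at hs'
  obtain ⟨r, hr, hrl, hri, hrz, -⟩ := exists_meet P hF hR hq V hi hs hqi (Ne.symm hs'.1) (Ne.symm hs'.2) hlz
    (fun h => hiz h.symm)
  exact ⟨r, hr, hrl.2.1, hri, hrz⟩

theorem partner_unique (P : M22Prim D) {R : Set G} (hR : IsHex D R) {i q z r r' : G} (hi : i ∈ R)
    (hq : q ∈ R) (hz : z ∈ D) (hqz : Commute q z) (hiz : ¬ Commute i z) (hr : r ∈ R) (hr' : r' ∈ R)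
    (nr : r ≠ q) (nr' : r' ≠ q) (cr : Commute r z) (cr' : Commute r' z) : r = r' := by
  by_contra hne
  have hlz : z ∈ link D q := ⟨hz, fun e => hiz (e ▸ P.hex_comm hR hi hq), hqz⟩
  obtain ⟨F, _, _, hF, ⟨V⟩⟩ := Vec.exists_vec P.hyp (P.hex_mem hR hq)
  have hqi : i ≠ q := fun e => hiz (e ▸ hqz)
  obtain ⟨α, β, e⟩ := P.mem_span_of_mem hR hF hq V hr hr' nr.symm nr'.symm hne hi hqi
  have li : i ∈ link D q := ⟨P.hex_mem hR hi, hqi, P.hex_comm hR hq hi⟩
  have lr : r ∈ link D q := ⟨P.hex_mem hR hr, nr, P.hex_comm hR hq hr⟩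
  have lr' : r' ∈ link D q := ⟨P.hex_mem hR hr', nr', P.hex_comm hR hq hr'⟩
  refine hiz ((V.orth i li z hlz).2 ?_)
  rw [e, h_add_left, h_smul_left, h_smul_left, (V.orth r lr z hlz).1 cr, (V.orth r' lr' z hlz).1 cr']
  simp

end ChainExist

open ChainExist

/-- A path of six transpositions commuting with two non-commuting ones. -/
theorem exists_chain (P : M22Prim D) {a b : G} (ha : a ∈ D) (hb : b ∈ D) (hab : ¬ Commute a b) :
    ∃ p : Fin 6 → G, (∀ k, p k ∈ link D a) ∧ (∀ k, Commute (p k) b) ∧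
      ∀ i j : Fin 6, Commute (p i) (p j) ↔ ¬((i : ℕ) + 1 = j ∨ (j : ℕ) + 1 = i) := by
  classical
  have hD := P.data
  set X := common D a b with hX
  have hXl : X = link D a ∩ link D b := (link_inter_far hab).symm
  have hX126 : X.ncard = 126 := by rw [hXl]; exact P.srg.far a ha b hb hab
  have hlab : ∀ {x}, x ∈ X → a ∈ link D x ∧ b ∈ link D x := fun {x} hx =>
    ⟨⟨ha, fun e => hab (e ▸ hx.2.2).symm, hx.2.1.symm⟩, hb, fun e => hab (e ▸ hx.2.1), hx.2.2.symm⟩
  have hval : ∀ {x}, x ∈ X → (link D x ∩ X).ncard = 45 := fun {x} hx => by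
    rw [hXl]
    exact common_three hD P.hyp.cl P.hyp.twinFree hx.1 (P.link_srg hx.1) (hlab hx).1 (hlab hx).2 hab
  obtain ⟨i, hi⟩ : X.Nonempty := Set.nonempty_of_ncard_ne_zero (by rw [hX126]; norm_num)
  obtain ⟨F, _, _, hF, ⟨V⟩⟩ := Vec.exists_vec P.hyp hi.1
  set W := link D i ∩ X with hW
  set O := X \ insert i W with hO
  have hOc : 80 ≤ O.ncard := by
    have h1 := Set.ncard_insert_le i W
    have h2 := Set.le_ncard_diff (insert i W) X
    rw [hval hi] at h1
    rw [hX126] at h2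
    rw [hO]; omega
  have hOc' : O.ncard = 80 := by
    have hsub : insert i W ⊆ X := Set.insert_subset hi Set.inter_subset_right
    have := Set.ncard_diff_add_ncard_of_subset hsub
    rw [hX126, Set.ncard_insert_of_notMem (fun h => h.1.2.1 rfl), hval hi, ← hO] at this
    omega
  obtain ⟨la, lb⟩ := hlab hi
  set p' := V.φ a
  set q' := V.φ b
  have hpq : H p' q' ≠ 0 := fun e => hab ((V.orth a la b lb).2 e)
  have hpp : H p' p' = 0 := V.iso a la
  have hqq : H q' q' = 0 := V.iso b lb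
  have hWv : ∀ {y}, y ∈ W → H (V.φ y) p' = 0 ∧ H (V.φ y) q' = 0 := fun {y} hy =>
    ⟨(V.orth y hy.1 a la).1 hy.2.2.1.symm, (V.orth y hy.1 b lb).1 hy.2.2.2.symm⟩
  have hWO : ∀ {z}, z ∈ O → z ∈ X ∧ ¬ Commute i z ∧ z ≠ i := fun {z} hz => by
    have hne : z ≠ i := fun e => hz.2 (e ▸ Set.mem_insert _ _)
    exact ⟨hz.1, fun h => hz.2 (Set.mem_insert_of_mem _ ⟨⟨hz.1.1, hne, h⟩, hz.1⟩), hne⟩
  have hhex : ∀ {e y}, e ∈ W → y ∈ W → e ≠ y → Commute e y →
      IsHex D (hset D i e y) ∧ i ∈ hset D i e y ∧ e ∈ hset D i e y ∧ y ∈ hset D i e y ∧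
        ∀ u ∈ hset D i e y, u ∈ X := fun {e y} he hy hne hc => by
    have f := fac_three hi.1 he.1.1 hy.1.1 he.1.2.1.symm hy.1.2.1.symm hne he.1.2.2 hy.1.2.2 hc
    exact ⟨⟨i, e, y, f, rfl⟩, (M22Prim.mem_hset_self f).1, (M22Prim.mem_hset_self f).2.1, (M22Prim.mem_hset_self f).2.2,
      fun u hu => hset_common ha hb hi he.2 hy.2 hu⟩
  have hnum : ∀ {e}, e ∈ W → ∃ f : G → Fin 3 × F, Set.InjOn f {y | y ∈ W ∧ y ≠ e ∧ Commute e y} ∧
      ∀ y ∈ {y | y ∈ W ∧ y ≠ e ∧ Commute e y}, ∀ y' ∈ {y | y ∈ W ∧ y ≠ e ∧ Commute e y},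
        (f y).1 = (f y').1 → y' ∈ hset D i e y := by
    intro e he
    obtain ⟨r, hr⟩ := three_lines hF hpq hpp hqq (V.ne e he.1) (hWv he).1 (hWv he).2 (V.iso e he.1)
    have key : ∀ y ∈ {y | y ∈ W ∧ y ≠ e ∧ Commute e y}, ∃ t : Fin 3 × F, ∃ k : F, k ≠ 0 ∧
        V.φ y = k • (t.2 • V.φ e + r t.1) := by
      rintro y ⟨hy, hne, hc⟩
      obtain ⟨j, α, β, ey⟩ := hr _ (hWv hy).1 (hWv hy).2 ((V.orth y hy.1 e he.1).1 hc.symm) (V.iso y hy.1)
      have hβ : β ≠ 0 := fun h => by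
        rw [h, zero_smul, add_zero] at ey
        exact hne (V.inj e he.1 y hy.1 α ey).symm
      exact ⟨(j, β⁻¹ * α), β, hβ, by rw [smul_add, smul_smul, mul_inv_cancel_left₀ hβ]; exact ey⟩
    choose t k hk0 hk using key
    refine ⟨fun y => if h : y ∈ {y | y ∈ W ∧ y ≠ e ∧ Commute e y} then t y h else (0, 0), ?_, ?_⟩
    · intro y hy y' hy' h
      simp only [dif_pos hy, dif_pos hy'] at h
      refine V.inj y hy.1.1 y' hy'.1.1 (k y' hy' * (k y hy)⁻¹) ?_
      rw [hk y' hy', hk y hy, h, smul_smul, inv_mul_cancel_right₀ (hk0 y hy)]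
    · intro y hy y' hy' h
      simp only [dif_pos hy, dif_pos hy'] at h
      obtain ⟨hR, h1, h2, h3, -⟩ := hhex he hy.1 hy.2.1.symm hy.2.2
      refine P.mem_of_span hR hF h1 V h2 h3 he.1.2.1.symm hy.1.1.2.1.symm hy'.1.1 hy.2.1.symm
        (α := k y' hy' * ((t y' hy').2 + (t y hy).2)) (β := k y' hy' * (k y hy)⁻¹) ?_
      rw [hk y' hy', hk y hy, h, mul_smul, mul_smul, inv_smul_smul₀ (hk0 y hy), ← smul_add, add_smul]
      congr 1
      rw [show ∀ A B R : Fin 6 → F, A + B + (B + R) = A + (B + B) + R from fun A B R => by abel,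
        vadd_self hF, add_zero]
  have hc12 : ∀ {e}, e ∈ W → ({y | y ∈ W ∧ y ≠ e ∧ Commute e y} : Set G).ncard ≤ 12 := by
    intro e he
    obtain ⟨f, hf, -⟩ := hnum he
    refine (Set.ncard_le_ncard_of_injOn f (fun _ _ => Set.mem_univ _) hf (Set.toFinite _)).trans ?_
    rw [Set.ncard_univ, Nat.card_eq_fintype_card, Fintype.card_prod, Fintype.card_fin, hF]
  have hWc : ∀ {e}, e ∈ W → 32 ≤ ({z | z ∈ O ∧ Commute e z} : Set G).ncard := by
    intro e he
    have hsub : link D e ∩ X ⊆ insert i {y | y ∈ W ∧ y ≠ e ∧ Commute e y} ∪ {z | z ∈ O ∧ Commute e z} := by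
      rintro y ⟨hy, hyX⟩
      by_cases hyi : y = i
      · exact Or.inl (hyi ▸ Set.mem_insert _ _)
      by_cases hcy : Commute i y
      · exact Or.inl (Set.mem_insert_of_mem _ ⟨⟨⟨hyX.1, hyi, hcy⟩, hyX⟩, hy.2.1, hy.2.2⟩)
      · refine Or.inr ⟨⟨hyX, ?_⟩, hy.2.2⟩
        rintro (h | h)
        exacts [hyi h, hcy h.1.2.2]
    have h1 := Set.ncard_le_ncard hsub (Set.toFinite _)
    have h2 := Set.ncard_union_le (insert i {y | y ∈ W ∧ y ≠ e ∧ Commute e y}) {z | z ∈ O ∧ Commute e z}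
    have h3 := Set.ncard_insert_le i {y | y ∈ W ∧ y ≠ e ∧ Commute e y}
    have h4 := hc12 he
    rw [hval he.2] at h1
    omega
  obtain ⟨z, hz, hzZ⟩ : ∃ z ∈ O, 18 ≤ ({e | e ∈ W ∧ Commute e z} : Set G).ncard := by
    by_contra hcon
    push Not at hcon
    haveI := Fintype.ofFinite G
    have hs := Finset.sum_card_bipartiteAbove_eq_sum_card_bipartiteBelow (fun e z : G => Commute e z)
      (s := W.toFinset) (t := O.toFinset)
    have h1 : 45 * 32 ≤ ∑ e ∈ W.toFinset, (O.toFinset.filter fun z => Commute e z).card := by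
      have hcard : W.toFinset.card = 45 := by rw [← Set.ncard_eq_toFinset_card']; exact hval hi
      rw [← hcard, ← smul_eq_mul]
      refine Finset.card_nsmul_le_sum _ _ _ fun e he => ?_
      rw [← Set.ncard_coe_finset]
      refine (hWc (Set.mem_toFinset.1 he)).trans (le_of_eq (congrArg Set.ncard ?_))
      ext u; simp
    have h2 : (∑ z ∈ O.toFinset, (W.toFinset.filter fun e => Commute e z).card) ≤ 80 * 17 := by
      have hcard : O.toFinset.card = 80 := by rw [← Set.ncard_eq_toFinset_card']; exact hOc'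
      rw [← hcard, ← smul_eq_mul]
      refine Finset.sum_le_card_nsmul _ _ _ fun u hu => ?_
      rw [← Set.ncard_coe_finset]
      have := hcon u (Set.mem_toFinset.1 hu)
      refine Nat.le_of_lt_succ (lt_of_eq_of_lt ?_ this)
      congr 1; ext v; simp
    have := h1.trans (hs.le.trans h2)
    omega
  obtain ⟨hzX, hiz, -⟩ := hWO hz
  set Z := ({e | e ∈ W ∧ Commute e z} : Set G) with hZdef
  have hnb : ∀ {e}, e ∈ Z → ({y | y ∈ Z ∧ y ≠ e ∧ Commute e y} : Set G).ncard ≤ 3 := by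
    intro e he
    obtain ⟨f, hf, hline⟩ := hnum he.1
    refine (Set.ncard_le_ncard_of_injOn (fun y => (f y).1) (fun _ _ => Set.mem_univ _) ?_
      (Set.toFinite _)).trans (by rw [Set.ncard_univ, Nat.card_eq_fintype_card, Fintype.card_fin])
    intro y hy y' hy' h
    have my : y ∈ {y | y ∈ W ∧ y ≠ e ∧ Commute e y} := ⟨hy.1.1, hy.2.1, hy.2.2⟩
    have hm := hline y my y' ⟨hy'.1.1, hy'.2.1, hy'.2.2⟩ h
    obtain ⟨hR, h1, h2, h3, -⟩ := hhex he.1 hy.1.1 hy.2.1.symm hy.2.2
    exact partner_unique P hR h1 h2 hzX.1 he.2 hiz h3 hm hy.2.1 hy'.2.1 hy.1.2 hy'.1.2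
  obtain ⟨e, he⟩ : Z.Nonempty := Set.nonempty_of_ncard_ne_zero (by omega)
  have mkW : ∀ {w : Fin 6 → F}, H w p' = 0 → H w q' = 0 → H w w = 0 → w ≠ 0 →
      ∃ y ∈ W, ∃ c : F, c ≠ 0 ∧ V.φ y = c • w := by
    intro w h1 h2 h3 h4
    obtain ⟨y, hy, c, hc, ey⟩ := V.pt w h3 h4
    exact ⟨y, ⟨hy, hy.1, ((V.orth y hy a la).2 (by rw [ey, h_smul_left, h1, mul_zero])).symm,
      ((V.orth y hy b lb).2 (by rw [ey, h_smul_left, h2, mul_zero])).symm⟩, c, hc, ey⟩
  -- the partner of `e`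
  obtain ⟨g, hgZ, hge, ceg⟩ : ∃ g ∈ Z, g ≠ e ∧ Commute e g := by
    obtain ⟨w, w1, w2, w3, w4, w5⟩ := exists_line hF hpq hpp hqq (V.ne e he.1.1) (hWv he.1).1 (hWv he.1).2
      (V.iso e he.1.1)
    obtain ⟨y, hy, c, hc, ey⟩ := mkW w1 w2 w4 fun h => w5 0 (by rw [h, zero_smul])
    have hye : Commute y e := (V.orth y hy.1 e he.1.1).2 (by rw [ey, h_smul_left, w3, mul_zero])
    have hne : e ≠ y := fun h => w5 c⁻¹ (by
      have : V.φ e = c • w := h ▸ ey
      rw [this, inv_smul_smul₀ hc])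
    obtain ⟨hR, h1, h2, h3, hsub⟩ := hhex he.1 hy hne hye.symm
    obtain ⟨r, hr, r1, r2, r3⟩ := partner_exists P hR h1 h2 hzX.1 he.2 hiz
    exact ⟨r, ⟨⟨⟨P.hex_mem hR hr, r2, P.hex_comm hR h1 hr⟩, hsub r hr⟩, r3⟩, r1, P.hex_comm hR h2 hr⟩
  -- a second line through `g`
  obtain ⟨s, hsW, hgs, cgs, hse⟩ : ∃ s ∈ W, g ≠ s ∧ Commute g s ∧ ¬ Commute s e := by
    obtain ⟨w, w1, w2, w3, w4, w5⟩ := exists_dual hF hpq hpp hqq (V.ne g hgZ.1.1) (hWv hgZ.1).1
      (hWv hgZ.1).2 (V.iso e he.1.1) (hWv he.1).1 (hWv he.1).2 ((V.orth g hgZ.1.1 e he.1.1).1 ceg.symm)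
      (fun c h => hge (V.inj g hgZ.1.1 e he.1.1 c h))
    obtain ⟨y, hy, c, hc, ey⟩ := mkW w1 w2 w5 fun h => by rw [h, h_zero_left] at w4; exact zero_ne_one w4
    have hye : ¬ Commute y e := fun h => hc (by
      have := (V.orth y hy.1 e he.1.1).1 h
      rwa [ey, h_smul_left, w4, mul_one] at this)
    exact ⟨y, hy, fun h => hye (h ▸ ceg.symm),
      ((V.orth y hy.1 g hgZ.1.1).2 (by rw [ey, h_smul_left, w3, mul_zero])).symm, hye⟩
  obtain ⟨hR, h1, h2, h3, hsub⟩ := hhex hgZ.1 hsW hgs cgs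
  set R := hset D i g s
  obtain ⟨z₁, hz₁R, hz₁g, hz₁i, cz₁⟩ := partner_exists P hR h1 h2 hzX.1 hgZ.2 hiz
  have hz₁ : z₁ ∈ Z := ⟨⟨⟨P.hex_mem hR hz₁R, hz₁i, P.hex_comm hR h1 hz₁R⟩, hsub _ hz₁R⟩, cz₁⟩
  -- a member of `Z` commuting with none of the three
  obtain ⟨f, hfZ, hfe, hfg, hfz⟩ : ∃ f ∈ Z, ¬ Commute f e ∧ ¬ Commute f g ∧ ¬ Commute f z₁ := by
    by_contra hcon
    push Not at hcon
    have hsub' : Z ⊆ (insert e {y | y ∈ Z ∧ y ≠ e ∧ Commute e y} ∪ insert g {y | y ∈ Z ∧ y ≠ g ∧ Commute g y}) ∪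
        insert z₁ {y | y ∈ Z ∧ y ≠ z₁ ∧ Commute z₁ y} := by
      intro y hy
      have hin : ∀ {u : G}, Commute y u → y ∈ insert u {y | y ∈ Z ∧ y ≠ u ∧ Commute u y} := fun {u} h =>
        (eq_or_ne y u).elim (fun e => e ▸ Set.mem_insert _ _) fun hne =>
          Set.mem_insert_of_mem _ ⟨hy, hne, h.symm⟩
      by_cases c1 : Commute y e
      · exact Or.inl (Or.inl (hin c1))
      by_cases c2 : Commute y g
      · exact Or.inl (Or.inr (hin c2))
      exact Or.inr (hin (hcon y hy c1 c2))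
    have k1 := Set.ncard_le_ncard hsub' (Set.toFinite _)
    have k2 := Set.ncard_union_le (insert e {y | y ∈ Z ∧ y ≠ e ∧ Commute e y} ∪
      insert g {y | y ∈ Z ∧ y ≠ g ∧ Commute g y}) (insert z₁ {y | y ∈ Z ∧ y ≠ z₁ ∧ Commute z₁ y})
    have k3 := Set.ncard_union_le (insert e {y | y ∈ Z ∧ y ≠ e ∧ Commute e y})
      (insert g {y | y ∈ Z ∧ y ≠ g ∧ Commute g y})
    have k4 := Set.ncard_insert_le e {y | y ∈ Z ∧ y ≠ e ∧ Commute e y}
    have k5 := Set.ncard_insert_le g {y | y ∈ Z ∧ y ≠ g ∧ Commute g y}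
    have k6 := Set.ncard_insert_le z₁ {y | y ∈ Z ∧ y ≠ z₁ ∧ Commute z₁ y}
    have := hnb he
    have := hnb hgZ
    have := hnb hz₁
    omega
  obtain ⟨d, hdR, hdl, hdg, cdf, α, β, hβ, ed⟩ := exists_meet P hF hR h1 V h2 h3 hgZ.1.1.2.1.symm
    hsW.1.2.1.symm hgs hfZ.1.1 hfg
  have hde : ¬ Commute d e := fun h => by
    have h' := (V.orth d hdl e he.1.1).1 h
    rw [ed, h_add_left, h_smul_left, h_smul_left, (V.orth g hgZ.1.1 e he.1.1).1 ceg.symm, mul_zero,
      zero_add] at h'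
    exact hse ((V.orth s hsW.1 e he.1.1).2 ((mul_eq_zero.1 h').resolve_left hβ))
  have cdg : Commute d g := P.hex_comm hR hdR h2
  have hdz : ¬ Commute d z := fun h => hfz (by
    have : d = z₁ := partner_unique P hR h1 h2 hzX.1 hgZ.2 hiz hdR hz₁R hdg hz₁g h cz₁
    exact this ▸ cdf.symm)
  have hdX : d ∈ X := hsub _ hdR
  refine ⟨![i, z, d, e, f, g], ?_, ?_, ?_⟩
  · intro k
    have hl : ∀ {y}, y ∈ X → y ∈ link D a := fun {y} hy =>
      ⟨hy.1, fun h => hab (h ▸ hy.2.2).symm, hy.2.1⟩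
    fin_cases k
    exacts [hl hi, hl hzX, hl hdX, hl he.1.2, hl hfZ.1.2, hl hgZ.1.2]
  · intro k
    fin_cases k
    exacts [hi.2.2.symm, hzX.2.2.symm, hdX.2.2.symm, he.1.2.2.2.symm, hfZ.1.2.2.2.symm,
      hgZ.1.2.2.2.symm]
  · intro k l
    have ciz : ¬ Commute z i := fun h => hiz h.symm
    have czd : ¬ Commute z d := fun h => hdz h.symm
    have ced : ¬ Commute e d := fun h => hde h.symm
    have cef : ¬ Commute e f := fun h => hfe h.symm
    have cgf : ¬ Commute g f := fun h => hfg h.symm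
    fin_cases k <;> fin_cases l <;>
      simp [hiz, hdz, hde, hfe, hfg, ciz, czd, ced, cef, cgf, cdf, cdf.symm, cdg, cdg.symm, ceg, ceg.symm,
        he.2, he.2.symm, hfZ.2, hfZ.2.symm, hgZ.2, hgZ.2.symm, he.1.1.2.2, he.1.1.2.2.symm,
        hfZ.1.1.2.2, hfZ.1.1.2.2.symm, hgZ.1.1.2.2, hgZ.1.1.2.2.symm, hdl.2.2, hdl.2.2.symm]

end Cfsg.Agent.M22Trans.W
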