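import Cfsg.Agent.H77.SrgThree

/-!
The discriminant of a strongly regular graph with unequal multiplicities is a square.
-/

set_option autoImplicit false
set_option maxHeartbeats 800000

namespace Cfsg.Agent.M22Trans.W

open Matrix

theorem disc_square {V : Type*} [Fintype V] [DecidableEq V] [Nonempty V] (R : V → V → Prop)
    [DecidableRel R] (k lam μ dN : ℕ) (hsym : ∀ a b, R a b → R b a) (hirr : ∀ a, ¬ R a a)
    (hdeg : ∀ a, (Finset.univ.filter (R a)).card = k)
    (hlam : ∀ a b, R a b → (Finset.univ.filter fun c => R a c ∧ R b c).card = lam)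
    (hmu : ∀ a b, a ≠ b → ¬ R a b → (Finset.univ.filter fun c => R a c ∧ R b c).card = μ)
    (hd : (dN : ℤ) = ((μ : ℤ) - lam) ^ 2 + 4 * ((k : ℤ) - μ))
    (hT : ((μ : ℤ) - lam) * ((Fintype.card V : ℤ) - 1) - 2 * k ≠ 0) : IsSquare dN := by
  classical
  obtain ⟨A, hA⟩ : ∃ A : Matrix V V ℝ, ∀ a b, A a b = if R a b then 1 else 0 :=
    ⟨Matrix.of fun a b => if R a b then 1 else 0, fun _ _ => rfl⟩
  obtain ⟨J, hJ⟩ : ∃ J : Matrix V V ℝ, ∀ a b, J a b = 1 :=
    ⟨Matrix.of fun _ _ => 1, fun _ _ => rfl⟩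
  set v : ℝ := (Fintype.card V : ℝ) with hv
  have hvpos : 0 < v := by rw [hv]; exact_mod_cast Fintype.card_pos
  have hAA : A * A = (k : ℝ) • (1 : Matrix V V ℝ) + (lam : ℝ) • A + (μ : ℝ) • (J - 1 - A) := by
    ext a b
    have hl : (A * A) a b = ((Finset.univ.filter fun c => R a c ∧ R b c).card : ℝ) := by
      rw [Matrix.mul_apply, ← Finset.sum_boole]
      refine Finset.sum_congr rfl fun c _ => ?_
      by_cases h1 : R a c <;> by_cases h2 : R b c
      · simp [hA, h1, h2, hsym b c h2]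
      · have : ¬ R c b := fun h => h2 (hsym c b h)
        simp [hA, h1, h2, this]
      · simp [hA, h1, h2]
      · simp [hA, h1, h2]
    rw [hl]
    rcases eq_or_ne a b with rfl | hne
    · simp [hA, hJ, hirr a, hdeg a]
    · by_cases hR : R a b
      · simp [hA, hJ, hR, hne, hlam a b hR]
      · simp [hA, hJ, hR, hne, hmu a b hne hR]
  have hAJ : A * J = (k : ℝ) • J := by
    ext a b
    rw [Matrix.mul_apply]
    simp [hA, hJ, hdeg a]
  have hJA : J * A = (k : ℝ) • J := by
    ext a b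
    rw [Matrix.mul_apply]
    have : (Finset.univ.filter fun c => R c b) = Finset.univ.filter (R b) :=
      Finset.filter_congr fun c _ => ⟨fun h => hsym _ _ h, fun h => hsym _ _ h⟩
    simp [hA, hJ, this, hdeg b]
  have hJJ : J * J = v • J := by
    ext a b
    rw [Matrix.mul_apply]
    simp [hJ, hv]
  have hk2 : (k : ℝ) * k = k + lam * k + μ * (v - 1 - k) := by
    obtain ⟨a⟩ := ‹Nonempty V›
    have h := congrArg (fun M : Matrix V V ℝ => (M * J) a a) hAA
    simp only [Matrix.mul_assoc, hAJ, Matrix.mul_smul, Matrix.add_mul, Matrix.sub_mul,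
      Matrix.smul_mul, Matrix.one_mul, hJJ] at h
    simp [hJ] at h
    linarith
  have hdR : (dN : ℝ) = ((μ : ℝ) - lam) * ((μ : ℝ) - lam) + 4 * ((k : ℝ) - μ) := by
    have := congrArg (fun z : ℤ => (z : ℝ)) hd
    push_cast at this
    linarith [sq ((μ : ℝ) - lam)]
  by_contra hsq
  have hirr' : Irrational (√(dN : ℝ)) := irrational_sqrt_natCast_iff.2 hsq
  set r : ℝ := √(dN : ℝ) with hr
  have hr2 : r * r = dN := Real.mul_self_sqrt (Nat.cast_nonneg _)
  have hrne : r ≠ 0 := hirr'.ne_zero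
  set δ : ℝ := (μ : ℝ) - lam with hδ
  set c : ℝ := (2 * k + δ) / v with hc
  have hcv : c * v = 2 * k + δ := by rw [hc]; field_simp
  let P : Matrix V V ℝ := 1 - v⁻¹ • J
  let F : Matrix V V ℝ := (2 : ℝ) • A + δ • 1 - c • J
  have hFF : F * F = (dN : ℝ) • P := by
    have e : F * F = (4 : ℝ) • (A * A) + (4 * δ) • A + (δ * δ) • (1 : Matrix V V ℝ)
        + (c * c * v - 4 * c * k - 2 * c * δ) • J := by
      simp only [F, Matrix.add_mul, Matrix.mul_add, Matrix.sub_mul, Matrix.mul_sub, Matrix.smul_mul,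
        Matrix.mul_smul, Matrix.one_mul, Matrix.mul_one, hAJ, hJA, hJJ, smul_smul]
      module
    have hcoef : (4 : ℝ) * μ + (c * c * v - 4 * c * k - 2 * c * δ) = -(dN * v⁻¹) := by
      rw [hdR, hc, hδ]; field_simp; nlinarith [hk2]
    rw [e, hAA]
    calc (4 : ℝ) • ((k : ℝ) • (1 : Matrix V V ℝ) + (lam : ℝ) • A + (μ : ℝ) • (J - 1 - A)) + (4 * δ) • A
          + (δ * δ) • (1 : Matrix V V ℝ) + (c * c * v - 4 * c * k - 2 * c * δ) • J
        = (δ * δ + 4 * ((k : ℝ) - μ)) • (1 : Matrix V V ℝ)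
          + ((4 : ℝ) * μ + (c * c * v - 4 * c * k - 2 * c * δ)) • J := by
          simp only [hδ]; module
      _ = (dN : ℝ) • P := by rw [hcoef, ← hdR]; simp only [P]; module
  have hFJ : F * J = 0 := by
    simp only [F, Matrix.add_mul, Matrix.sub_mul, Matrix.smul_mul, Matrix.one_mul, hAJ, hJJ,
      smul_smul, hcv]
    module
  have hJF : J * F = 0 := by
    simp only [F, Matrix.mul_add, Matrix.mul_sub, Matrix.mul_smul, Matrix.mul_one, hJA, hJJ,
      smul_smul, hcv]
    module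
  have hFP : F * P = F := by
    simp only [P, Matrix.mul_sub, Matrix.mul_one, Matrix.mul_smul, hFJ, smul_zero, sub_zero]
  have hPF : P * F = F := by
    simp only [P, Matrix.sub_mul, Matrix.one_mul, Matrix.smul_mul, hJF, smul_zero, sub_zero]
  have hPP : P * P = P := by
    simp only [P, Matrix.sub_mul, Matrix.mul_sub, Matrix.one_mul, Matrix.mul_one, Matrix.smul_mul,
      Matrix.mul_smul, hJJ, smul_smul]
    rw [inv_mul_cancel₀ hvpos.ne']
    module
  obtain ⟨n, hn⟩ := H77FO.trace_idem ((2 : ℝ)⁻¹ • (P + r⁻¹ • F)) (by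
    simp only [Matrix.smul_mul, Matrix.mul_smul, Matrix.add_mul, Matrix.mul_add, hPP, hFP, hPF, hFF,
      smul_smul]
    have e : r⁻¹ * (dN : ℝ) = r := by rw [← hr2]; field_simp
    rw [e]
    match_scalars <;> field_simp <;> ring)
  have htA : A.trace = 0 := by simp [Matrix.trace, hA, hirr]
  have htJ : J.trace = v := by simp [Matrix.trace, hJ, hv]
  have htP : P.trace = v - 1 := by
    simp only [P, Matrix.trace_sub, Matrix.trace_one, Matrix.trace_smul, htJ, smul_eq_mul]
    rw [inv_mul_cancel₀ hvpos.ne', hv]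
  have htF : F.trace = δ * (v - 1) - 2 * k := by
    simp only [F, Matrix.trace_sub, Matrix.trace_add, Matrix.trace_smul, Matrix.trace_one, htA, htJ,
      smul_eq_mul, hcv, ← hv]
    ring
  rw [Matrix.trace_smul, Matrix.trace_add, Matrix.trace_smul, htP, htF, smul_eq_mul, smul_eq_mul]
    at hn
  set T : ℝ := δ * (v - 1) - 2 * k with hTdef
  have hTne : T ≠ 0 := by
    rw [hTdef, hδ, hv]
    exact_mod_cast hT
  have hTr : T = r * (2 * n - (v - 1)) := by
    field_simp at hn
    linarith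
  apply hirr'
  have hq : (2 * (n : ℝ) - (v - 1)) ≠ 0 := fun h => hTne (by rw [hTr, h, mul_zero])
  refine ⟨(((μ : ℚ) - lam) * ((Fintype.card V : ℚ) - 1) - 2 * k) / (2 * n - ((Fintype.card V : ℚ) - 1)), ?_⟩
  push_cast
  rw [← hv, ← hδ, ← hTdef, hTr, mul_div_assoc, div_self hq, mul_one]

end Cfsg.Agent.M22Trans.W
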