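import Cfsg.Agent.TTLink.SrgTools
import Cfsg.Agent.TTLink.M23Unique
import Cfsg.Agent.M22Trans.W.Count
import Cfsg.Agent.TTLink.UnitarySrg
import Cfsg.Agent.M22Trans.W.SrgSquare
import Cfsg.Agent.M22Trans.W.ThreePow

/-!
A primitive group of type M(22), without a condition on common links, has 3510 transpositions.
-/

set_option autoImplicit false
set_option linter.unusedSectionVars false

namespace Cfsg.Agent.M22Trans.W

open Cfsg.Agent.TTLink Cfsg.Agent.ThreeTransp45 Cfsg.Agent.SporB UnitarySix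

variable {G : Type*} [Group G] [Finite G] {D : Set G}

/-- The variance bound. -/
theorem range_m {l m : ℕ} (hlm : l * m = 354816)
    (h3 : ((m : ℤ) * 180 - m * 45) ^ 2 ≤
      ((693 : ℤ) - m) * (m * (180 + 45 * 51 + ((m : ℤ) - 1 - 45) * 45) - m * 45 * 45)) :
    126 ≤ m ∧ m ≤ 198 := by
  have hm : (0 : ℤ) < m := by
    rcases Nat.eq_zero_or_pos m with rfl | h
    · simp at hlm
    · exact_mod_cast h
  constructor
  · by_contra h; push Not at h
    have : (m : ℤ) ≤ 125 := by exact_mod_cast (show m ≤ 125 by omega)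
    nlinarith
  · by_contra h; push Not at h
    have : (199 : ℤ) ≤ m := by exact_mod_cast (show 199 ≤ m by omega)
    nlinarith

/-- The discriminant condition. -/
theorem two_cases {l m : ℕ} (h1 : 126 ≤ m) (h2 : m ≤ 198) (hlm : l * m = 354816)
    (hs : ∀ d : ℕ, (d : ℤ) = ((m : ℤ) - 180) ^ 2 + 4 * ((693 : ℤ) - m) →
      ((m : ℤ) - 180) * ((1 + 693 + l : ℕ) - 1 : ℤ) - 2 * 693 ≠ 0 → IsSquare d) :
    m = 126 ∧ l = 2816 ∨ m = 198 ∧ l = 1792 := by
  have hdvd : 354816 % m = 0 := by rw [← hlm]; simp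
  have hl : l = 354816 / m := by rw [← hlm, Nat.mul_div_cancel _ (by omega)]
  subst hl
  interval_cases m <;> first
    | omega
    | (exfalso
       have h := hs _ (Int.toNat_of_nonneg (by norm_num)) (by norm_num)
       norm_num at h
       revert h
       decide +kernel)

namespace M22Prim

variable (P : M22Prim D)
include P

theorem simple : IsSimpleGroup G := by
  obtain ⟨F, _, _, hF, -, hperf⟩ := P.covers
  obtain ⟨a, ha, -⟩ := P.hyp.cls.2.1
  obtain ⟨b, hb⟩ := P.hyp.link_nonempty ha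
  haveI hs : IsSimpleGroup ↥(commutator G) :=
    (S5361.result P.hyp.cls P.center ⟨a, ha, b, hb.1, hb.2.1.symm, hb.2.2⟩).1.2 P.prim
  exact ((MulEquiv.subgroupCongr hperf).trans Subgroup.topEquiv).isSimpleGroup_congr.1 hs

theorem link_srg {a : G} (ha : a ∈ D) : Srg (linkQuot D a) 693 180 51 45 := by
  obtain ⟨F, _, _, hF, ρ, hs, himg, hinj, hrefl, -⟩ := P.exists_link_epi ha
  have hker : Subgroup.center ↥(Subgroup.closure (link D a)) ≤ ρ.ker := fun z hz => by
    have : ρ z ∈ Subgroup.center (Cfsg.PSU 6 F 2) := Subgroup.mem_center_iff.2 fun u => by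
      obtain ⟨g, rfl⟩ := hs u
      rw [← map_mul, ← map_mul, Subgroup.mem_center_iff.1 hz g]
    rwa [psu_center hF, Subgroup.mem_bot] at this
  refine srg_transfer (QuotientGroup.lift _ ρ hker) ?_ ?_ ?_ (allTT_srg hF)
  · rw [← himg, linkQuot, Set.image_image]; rfl
  · rintro _ ⟨x, hx, rfl⟩ _ ⟨y, hy, rfl⟩ e
    exact congrArg _ (hinj hx hy e)
  · rintro _ ⟨x, hx, rfl⟩ _ ⟨y, hy, rfl⟩ h
    exact (show Commute x y from Subtype.ext (hrefl x y hy h).eq).map (QuotientGroup.mk' _)

theorem far_pairs {a b c : G} (ha : a ∈ D) (hb : b ∈ D) (hc : c ∈ D) (hab : ¬ Commute a b)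
    (hac : ¬ Commute a c) : ∃ g, cj g a = a ∧ cj g b = c := by
  obtain ⟨-, -, -, -, -, hperf⟩ := P.covers
  haveI := P.simple
  refine far_conj (RTSetting.of_class P.hyp.cls
    (((MulEquiv.subgroupCongr hperf).trans Subgroup.topEquiv).isSimpleGroup_congr.2 P.simple))
    ⟨a, b, fun e => hab e⟩ ⟨⟨a, hperf ▸ Subgroup.mem_top a⟩, ⟨b, hperf ▸ Subgroup.mem_top b⟩,
      fun e => hab (congrArg Subtype.val e)⟩ ha hb hc hab hac

theorem centralizer_card {d : G} (hd : d ∈ D) :
    Nat.card ↥(Subgroup.centralizer ({d} : Set G)) = 18393661440 := by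
  obtain ⟨F, _, _, hF, hcov, -⟩ := P.covers
  obtain ⟨cv⟩ := hcov d hd
  rw [cv.card hd P.data]

/-- An element of order eleven centralises no two commuting members. -/
theorem eleven_free {x y h : G} (hx : x ∈ D) (hy : y ∈ link D x) (hh : orderOf h = 11)
    (hhx : Commute h x) (hhy : Commute h y) : False := by
  obtain ⟨F, _, _, hF, hcov, -⟩ := P.covers
  obtain ⟨cv⟩ := hcov x hx
  let hc : ↥(Subgroup.centralizer ({x} : Set G)) := ⟨h, Subgroup.mem_centralizer_singleton_iff.2 hhx.eq⟩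
  let yc : ↥(Subgroup.centralizer ({x} : Set G)) :=
    ⟨y, Subgroup.mem_centralizer_singleton_iff.2 hy.2.2.symm.eq⟩
  have hq := cv.map_mem (c := yc) hy
  have hcard := card_class_mul (allTT_data hF) (allTT_cl hF) hq
  rw [allTT_card hF, psu_card hF] at hcard
  have hcom : Commute (cv.π hc) (cv.π yc) :=
    (show Commute hc yc from Subtype.ext hhy.eq).map cv.π
  have hd1 : orderOf (cv.π hc) ∣ Nat.card ↥(Subgroup.centralizer ({cv.π yc} : Set (Cfsg.PSU 6 F 2))) := by
    rw [← Subgroup.orderOf_mk (H := Subgroup.centralizer ({cv.π yc} : Set (Cfsg.PSU 6 F 2))) (cv.π hc)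
      (Subgroup.mem_centralizer_singleton_iff.2 hcom.eq)]
    exact orderOf_dvd_natCard _
  have hd2 : orderOf (cv.π hc) ∣ 11 := by
    refine (orderOf_map_dvd cv.π hc).trans ?_
    rw [← Subgroup.orderOf_coe hc]; exact hh ▸ dvd_refl _
  rcases (Nat.dvd_prime (by norm_num)).1 hd2 with e | e
  · rcases (cv.ker hc).1 (orderOf_eq_one_iff.1 e) with e' | e'
    · rw [show h = 1 from e', orderOf_one] at hh; exact absurd hh (by norm_num)
    · rw [show h = x from e'] at hh
      rw [P.data.set.1 x hx] at hh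
      exact absurd hh (by norm_num)
  · rw [e] at hd1
    have : Nat.card ↥(Subgroup.centralizer ({cv.π yc} : Set (Cfsg.PSU 6 F 2))) = 13271040 := by omega
    rw [this] at hd1
    exact absurd hd1 (by norm_num)

/-- The class does not have 2486 members. -/
theorem card_ne (hv : D.ncard = 2486) : False := by
  classical
  obtain ⟨d, hd, -⟩ := P.hyp.cls.2.1
  haveI : Fact (Nat.Prime 11) := ⟨by norm_num⟩
  obtain ⟨⟨h, hhC⟩, hh'⟩ := exists_prime_orderOf_dvd_card' (G := ↥(Subgroup.centralizer ({d} : Set G))) 11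
    (by rw [P.centralizer_card hd]; norm_num)
  have hh : orderOf h = 11 := by rw [← hh']; exact (Subgroup.orderOf_mk h hhC).symm
  set S : Set G := {x | x ∈ D ∧ Commute h x}
  obtain ⟨n, hn⟩ := exists_ncard_eq_pow P.data.set (S := S) (fun x hx => hx.1)
    ⟨d, hd, Subgroup.mem_centralizer_singleton_iff.1 hhC⟩
    (fun a ha b hb hab => by
      by_contra hne
      exact P.eleven_free ha.1 ⟨hb.1, fun e => hne e.symm, hab⟩ hh ha.2 hb.2)
    (fun a ha b hb => ⟨by
      have := P.data.inv' a b hb.1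
      rwa [cj, P.data.inv_eq ha.1] at this, (ha.2.mul_right hb.2).mul_right ha.2⟩)
  let H := Subgroup.zpowers h
  letI : MulAction ↥H ↥D :=
    { smul := fun g y => ⟨cj (g : G) y, P.data.inv' _ y y.2⟩
      one_smul := fun y => Subtype.ext (cj_one _)
      mul_smul := fun g g' y => Subtype.ext (cj_mul _ _ _) }
  have hH : IsPGroup 11 ↥H := IsPGroup.of_card (n := 1) (by rw [Nat.card_zpowers, hh, pow_one])
  have hmod := hH.card_modEq_card_fixedPoints (α := ↥D)
  have hfix : Nat.card ↥(MulAction.fixedPoints ↥H ↥D) = S.ncard := by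
    rw [Nat.card_coe_set_eq, ← Set.ncard_image_of_injective _ Subtype.val_injective]
    congr 1
    ext y
    constructor
    · rintro ⟨z, hz, rfl⟩
      exact ⟨z.2, (cj_eq_self_iff h _).1 (congrArg Subtype.val (hz ⟨h, Subgroup.mem_zpowers h⟩))⟩
    · rintro ⟨hy, hc⟩
      refine ⟨⟨y, hy⟩, fun g => Subtype.ext ?_, rfl⟩
      obtain ⟨k, hk⟩ := g.2
      exact (cj_eq_self_iff (g : G) y).2 (hk ▸ hc.zpow_left k)
  rw [hfix, Nat.card_coe_set_eq, hv, hn] at hmod
  have h11 : 11 ∣ 3 ^ n := Nat.modEq_zero_iff_dvd.1 (hmod.symm.trans (by decide))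
  exact absurd ((show Nat.Prime 11 by norm_num).dvd_of_dvd_pow h11) (by norm_num)

theorem srg : Srg D 3510 693 180 126 := by
  classical
  have hD := P.data
  obtain ⟨d, hd, -⟩ := P.hyp.cls.2.1
  obtain ⟨b, hb⟩ := P.hyp.link_nonempty hd
  obtain ⟨c, hc, hdc⟩ := ThreeTransp.exists_not_commute P.hyp.cls ⟨b, hb.1, d, hd, hb.2.1⟩ hd
  obtain ⟨l, m, hm, hl, hsrg, h2, h3⟩ := srg_step hD P.hyp.cl P.hyp.twinFree
    (fun a ha => P.link_srg ha) (fun ha hb hc => P.far_pairs ha hb hc) hd hc hdc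
  have hlm : l * m = 354816 := by omega
  have hr := range_m hlm h3
  letI : Fintype D := Fintype.ofFinite D
  haveI : Nonempty D := ⟨⟨d, hd⟩⟩
  have cnt : ∀ (S : Set G), S ⊆ D → (Finset.univ.filter fun c : D => (c : G) ∈ S).card = S.ncard := by
    intro S hS
    rw [← Set.ncard_coe_finset]
    rw [← Set.ncard_image_of_injective _ (Subtype.val_injective (p := fun z => z ∈ D))]
    congr 1
    ext z
    simp only [Set.mem_image, Finset.coe_filter, Finset.mem_univ, true_and, Set.mem_setOf_eq]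
    exact ⟨fun ⟨c, hc, e⟩ => e ▸ hc, fun hz => ⟨⟨z, hS hz⟩, hz, rfl⟩⟩
  have hcV : Fintype.card D = 1 + 693 + l := by
    rw [← Nat.card_eq_fintype_card, Nat.card_coe_set_eq, hsrg.card]
  rcases two_cases hr.1 hr.2 hlm (fun dd hdd hT => disc_square (V := D)
      (fun a b => (b : G) ∈ link D (a : G)) 693 180 m dd
      (fun a b h => TTLink.link_symm a.2 h) (fun a h => h.2.1 rfl)
      (fun a => (cnt _ fun y hy => hy.1).trans (hsrg.deg _ a.2))
      (fun a b h => by
        simpa only [Set.mem_inter_iff] using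
          (cnt (link D (a : G) ∩ link D b) fun y hy => hy.1.1).trans (hsrg.adj _ a.2 _ h))
      (fun a b hne hR => by
        simpa only [Set.mem_inter_iff] using
          (cnt (link D (a : G) ∩ link D b) fun y hy => hy.1.1).trans
            (hsrg.far _ a.2 _ b.2 fun hcc => hR ⟨b.2, fun e => hne (Subtype.ext e.symm), hcc⟩))
      (by push_cast; exact hdd) (by rw [hcV]; push_cast at hT ⊢; exact hT)) with
    ⟨rfl, rfl⟩ | ⟨rfl, rfl⟩
  · exact hsrg
  · exact (P.card_ne hsrg.card).elim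

theorem group_card : Nat.card G = 3510 * 18393661440 := by
  obtain ⟨a, ha, -⟩ := P.hyp.cls.2.1
  rw [← card_class_mul P.data P.hyp.cl ha, P.srg.card, P.centralizer_card ha]

end M22Prim

end Cfsg.Agent.M22Trans.W
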